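import Mathlib

set_option autoImplicit false

/-!
# Normal 2-coverings: transfer lemmas (helper156)

`TwoCov G`: `G` is the union of the conjugates of two proper subgroups.
-/

namespace Cfsg.Agent.H156

/-- `G` is the union of the conjugates of two proper subgroups. -/
def TwoCov (G : Type*) [Group G] : Prop :=
  ∃ H K : Subgroup G, H ≠ ⊤ ∧ K ≠ ⊤ ∧ ∀ g : G, ∃ x : G, x * g * x⁻¹ ∈ H ∨ x * g * x⁻¹ ∈ K

/-- Pass to the quotient by the centre: it is enough that both subgroups contain the centre. -/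
theorem TwoCov.quot {G : Type*} [Group G] (N : Subgroup G) [N.Normal] (H K : Subgroup G)
    (hH : H ≠ ⊤) (hK : K ≠ ⊤) (hNH : N ≤ H) (hNK : N ≤ K)
    (hc : ∀ g : G, ∃ x : G, x * g * x⁻¹ ∈ H ∨ x * g * x⁻¹ ∈ K) :
    ∃ H K : Subgroup (G ⧸ N), H ≠ ⊤ ∧ K ≠ ⊤ ∧
      ∀ g : G ⧸ N, ∃ x : G ⧸ N, x * g * x⁻¹ ∈ H ∨ x * g * x⁻¹ ∈ K := by
  have hne : ∀ L : Subgroup G, L ≠ ⊤ → N ≤ L → L.map (QuotientGroup.mk' N) ≠ ⊤ := by
    intro L hL hNL h
    apply hL
    have h1 := congrArg (Subgroup.comap (QuotientGroup.mk' N)) h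
    rw [QuotientGroup.comap_map_mk', Subgroup.comap_top, sup_eq_right.mpr hNL] at h1
    exact h1
  refine ⟨H.map (QuotientGroup.mk' N), K.map (QuotientGroup.mk' N), hne H hH hNH, hne K hK hNK, ?_⟩
  intro g
  obtain ⟨g, rfl⟩ := QuotientGroup.mk'_surjective N g
  obtain ⟨x, hx⟩ := hc g
  refine ⟨QuotientGroup.mk' N x, ?_⟩
  rw [← map_mul, ← map_inv, ← map_mul]
  rcases hx with hx | hx
  · exact Or.inl (Subgroup.mem_map_of_mem _ hx)
  · exact Or.inr (Subgroup.mem_map_of_mem _ hx)

section AS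

variable {F : Type*} [Field F]

/-- The image of `d ↦ d² + d` has index two. -/
theorem add_mem_P [Finite F] [CharP F 2] {x y : F} (hx : ¬ ∃ d : F, d ^ 2 + d = x)
    (hy : ¬ ∃ d : F, d ^ 2 + d = y) : ∃ d : F, d ^ 2 + d = x + y := by
  let P : F →+ F :=
    { toFun := fun d => d ^ 2 + d
      map_zero' := by ring
      map_add' := fun u v => by rw [CharTwo.add_sq]; ring }
  have hP : ∀ d, P d = d ^ 2 + d := fun _ => rfl
  have hker : Nat.card P.ker = 2 := by
    have hset : (P.ker : Set F) = {0, 1} := by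
      ext d
      rw [SetLike.mem_coe, AddMonoidHom.mem_ker, hP, Set.mem_insert_iff, Set.mem_singleton_iff]
      constructor
      · intro h
        have h1 : d * (d + 1) = 0 := by linear_combination h
        rcases mul_eq_zero.mp h1 with h2 | h2
        · exact Or.inl h2
        · right
          rw [CharTwo.add_eq_iff_eq_add] at h2
          rw [h2, zero_add]
      · rintro (rfl | rfl)
        · ring
        · rw [one_pow, CharTwo.add_self_eq_zero]
    have h : (P.ker : Set F).ncard = 2 := by rw [hset, Set.ncard_pair zero_ne_one]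
    rw [← Nat.card_coe_set_eq] at h
    exact h
  have hidx : P.range.index = 2 := by
    have h1 := AddSubgroup.card_mul_index P.range
    have h2 := AddSubgroup.card_mul_index P.ker
    rw [AddSubgroup.index_ker, hker] at h2
    rw [← h2, mul_comm] at h1
    exact Nat.eq_of_mul_eq_mul_right Nat.card_pos h1
  have h3 := (AddSubgroup.add_mem_iff_of_index_two hidx (a := x) (b := y)).mpr
    ⟨fun h => absurd h (by rintro ⟨d, hd⟩; exact hx ⟨d, hd⟩),
      fun h => absurd h (by rintro ⟨d, hd⟩; exact hy ⟨d, hd⟩)⟩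
  obtain ⟨d, hd⟩ := h3
  exact ⟨d, hd⟩

/-- Some element is not of the form `d² + d`. -/
theorem exists_not_P (F : Type*) [Field F] [Finite F] [CharP F 2] : ∃ n : F, ¬ ∃ d : F, d ^ 2 + d = n := by
  by_contra hcon
  push Not at hcon
  have hsurj : Function.Surjective (fun d : F => d ^ 2 + d) := hcon
  have hinj := Finite.injective_iff_surjective.mpr hsurj
  have h01 : (0 : F) = 1 := hinj (by
    show (0 : F) ^ 2 + 0 = 1 ^ 2 + 1
    rw [one_pow, CharTwo.add_self_eq_zero]
    ring)
  exact zero_ne_one h01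

end AS

end Cfsg.Agent.H156
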