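import Mathlib
import Cfsg.Prelude.Def_G2
import Cfsg.Agent.H156.Cov

set_option autoImplicit false

/-!
# `G₂(q)`, `q` even, is the union of the conjugates of `SL₃(q).2` and `SU₃(q).2` (helper156)
-/

open Cfsg Cfsg.Lie
open scoped Matrix

namespace Cfsg.Agent.H156.GTwoEven

variable {F : Type*} [Field F]

/-- The space of octonions. -/
abbrev V (F : Type*) := Fin 8 → F

/-- The identity element. -/
def e1 : V F := ![1, 0, 0, 0, 0, 0, 0, 1]

/-- The norm. -/
def nm (x : V F) : F := x 0 * x 7 - (x 1 * x 4 + x 2 * x 5 + x 3 * x 6)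

/-- The trace. -/
def tr (x : V F) : F := x 0 + x 7

/-- The polar form of the norm. -/
def bf (x y : V F) : F :=
  x 0 * y 7 + x 7 * y 0 - (x 1 * y 4 + x 4 * y 1 + x 2 * y 5 + x 5 * y 2 + x 3 * y 6 + x 6 * y 3)

theorem zm (x y : V F) : zornMul x y =
    ![x 0 * y 0 + (x 1 * y 4 + x 2 * y 5 + x 3 * y 6),
      x 0 * y 1 + y 7 * x 1 - (x 5 * y 6 - x 6 * y 5),
      x 0 * y 2 + y 7 * x 2 - (x 6 * y 4 - x 4 * y 6),
      x 0 * y 3 + y 7 * x 3 - (x 4 * y 5 - x 5 * y 4),
      y 0 * x 4 + x 7 * y 4 + (x 2 * y 3 - x 3 * y 2),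
      y 0 * x 5 + x 7 * y 5 + (x 3 * y 1 - x 1 * y 3),
      y 0 * x 6 + x 7 * y 6 + (x 1 * y 2 - x 2 * y 1),
      (x 4 * y 1 + x 5 * y 2 + x 6 * y 3) + x 7 * y 7] := by
  funext i
  fin_cases i <;> simp [zornMul, zA, zB, dot3, cross3] 

omit [Field F] in
theorem ext8 {x y : V F} (h0 : x 0 = y 0) (h1 : x 1 = y 1) (h2 : x 2 = y 2) (h3 : x 3 = y 3)
    (h4 : x 4 = y 4) (h5 : x 5 = y 5) (h6 : x 6 = y 6) (h7 : x 7 = y 7) : x = y := by
  funext i
  fin_cases i <;> assumption

/-- The quadratic equation. -/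
theorem quad (x : V F) : zornMul x x = tr x • x - nm x • e1 := by
  rw [zm]
  apply ext8 <;> simp [e1, tr, nm] <;> ring

theorem one_mul' (x : V F) : zornMul e1 x = x := by
  rw [zm]
  apply ext8 <;> simp [e1]

theorem mul_one' (x : V F) : zornMul x e1 = x := by
  rw [zm]
  apply ext8 <;> simp [e1]

theorem nm_add (x y : V F) : nm (x + y) = nm x + nm y + bf x y := by
  simp only [nm, bf, Pi.add_apply]; ring

theorem tr_add (x y : V F) : tr (x + y) = tr x + tr y := by
  simp only [tr, Pi.add_apply]; ring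

theorem tr_smul (c : F) (x : V F) : tr (c • x) = c * tr x := by
  simp only [tr, Pi.smul_apply, smul_eq_mul]; ring

theorem bf_add_left (x y z : V F) : bf (x + y) z = bf x z + bf y z := by
  simp only [bf, Pi.add_apply]; ring

theorem bf_add_right (x y z : V F) : bf x (y + z) = bf x y + bf x z := by
  simp only [bf, Pi.add_apply]; ring

theorem bf_smul_left (c : F) (x z : V F) : bf (c • x) z = c * bf x z := by
  simp only [bf, Pi.smul_apply, smul_eq_mul]; ring

theorem bf_smul_right (c : F) (x z : V F) : bf x (c • z) = c * bf x z := by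
  simp only [bf, Pi.smul_apply, smul_eq_mul]; ring

theorem bf_e1 (x : V F) : bf e1 x = tr x := by
  simp [bf, e1, tr]; ring

theorem bf_comm (x y : V F) : bf x y = bf y x := by
  simp only [bf]; ring

theorem nm_e1 : nm (e1 : V F) = 1 := by simp [nm, e1]

theorem tr_e1 : tr (e1 : V F) = 2 := by simp [tr, e1]; norm_num

/-- The action of an element of `G₂`. -/
def act (g : G2 F) : V F →ₗ[F] V F := Matrix.mulVecLin (g : GL (Fin 8) F).1

theorem act_mul (g h : G2 F) (x : V F) : act (g * h) x = act g (act h x) := by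
  simp only [act, Matrix.mulVecLin_apply, Subgroup.coe_mul, Units.val_mul, Matrix.mulVec_mulVec]

theorem act_one (x : V F) : act (1 : G2 F) x = x := by
  simp [act]

theorem act_inv_act (g : G2 F) (x : V F) : act g⁻¹ (act g x) = x := by
  rw [← act_mul, inv_mul_cancel, act_one]

theorem act_act_inv (g : G2 F) (x : V F) : act g (act g⁻¹ x) = x := by
  rw [← act_mul, mul_inv_cancel, act_one]

theorem act_zm (g : G2 F) (x y : V F) : act g (zornMul x y) = zornMul (act g x) (act g y) :=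
  g.2 x y

theorem act_e1 (g : G2 F) : act g e1 = e1 := by
  have h : act g (act g⁻¹ e1) = e1 := act_act_inv g _
  have h2 : zornMul (act g e1) (act g (act g⁻¹ e1)) = act g (act g⁻¹ e1) := by
    rw [← act_zm, one_mul']
  rw [h, mul_one'] at h2
  exact h2

theorem act_inj (g : G2 F) {x y : V F} (h : act g x = act g y) : x = y := by
  rw [← act_inv_act g x, h, act_inv_act]

theorem e1_ne_zero : (e1 : V F) ≠ 0 := by
  intro h
  have := congrFun h 0
  simp [e1] at this

theorem act_tr_nm (g : G2 F) (x : V F) : tr (act g x) = tr x ∧ nm (act g x) = nm x := by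
  by_cases hx : ∃ c : F, x = c • e1
  · obtain ⟨c, rfl⟩ := hx
    rw [map_smul, act_e1]
    exact ⟨rfl, rfl⟩
  · have h1 : zornMul (act g x) (act g x) = tr x • act g x - nm x • e1 := by
      rw [← act_zm, quad, map_sub, map_smul, map_smul, act_e1]
    rw [quad] at h1
    have h2 : (tr (act g x) - tr x) • act g x = (nm (act g x) - nm x) • e1 := by
      rw [sub_smul, sub_smul]
      have h5 : tr (act g x) • act g x =
          tr x • act g x - nm x • e1 + nm (act g x) • e1 := by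
        rw [← h1, sub_add_cancel]
      rw [h5]
      abel
    have h3 : tr (act g x) - tr x = 0 := by
      by_contra hne
      apply hx
      refine ⟨(tr (act g x) - tr x)⁻¹ * (nm (act g x) - nm x), ?_⟩
      apply act_inj g
      rw [map_smul, act_e1, mul_smul, ← h2, smul_smul, inv_mul_cancel₀ hne, one_smul]
    rw [h3, zero_smul] at h2
    have h4 : nm (act g x) - nm x = 0 := by
      rcases smul_eq_zero.mp h2.symm with h | h
      · exact h
      · exact absurd h e1_ne_zero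
    exact ⟨sub_eq_zero.mp h3, sub_eq_zero.mp h4⟩

theorem act_tr (g : G2 F) (x : V F) : tr (act g x) = tr x := (act_tr_nm g x).1
theorem act_nm (g : G2 F) (x : V F) : nm (act g x) = nm x := (act_tr_nm g x).2

theorem act_bf (g : G2 F) (x y : V F) : bf (act g x) (act g y) = bf x y := by
  have h := act_nm g (x + y)
  rw [map_add, nm_add, nm_add, act_nm, act_nm] at h
  linear_combination h

/-- An element of `G₂` from a linear automorphism. -/
theorem exists_act (e : V F ≃ₗ[F] V F) (he : ∀ x y, e (zornMul x y) = zornMul (e x) (e y)) :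
    ∃ g : G2 F, ∀ x, act g x = e x := by
  let A : GL (Fin 8) F := Matrix.GeneralLinearGroup.toLin.symm
    ((LinearMap.GeneralLinearGroup.generalLinearEquiv F (V F)).symm e)
  have hA : ∀ x, A.1 *ᵥ x = e x := by
    intro x
    have h : (Matrix.GeneralLinearGroup.toLin A) = 
      ((LinearMap.GeneralLinearGroup.generalLinearEquiv F (V F)).symm e) :=
        MulEquiv.apply_symm_apply _ _
    have h2 := congrArg (fun z : LinearMap.GeneralLinearGroup F (V F) => z.1 x) h
    exact h2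
  refine ⟨⟨A, ?_⟩, hA⟩
  intro x y
  show A.1 *ᵥ zornMul x y = zornMul (A.1 *ᵥ x) (A.1 *ᵥ y)
  rw [hA, hA, hA, he]

/-- The unipotent automorphism attached to `u ∈ F³`. -/
def phiF (u : Fin 3 → F) (x : V F) : V F :=
  ![x 0 - (u 0 * x 4 + u 1 * x 5 + u 2 * x 6),
    x 1 + (x 0 - x 7) * u 0 - (u 0 * x 4 + u 1 * x 5 + u 2 * x 6) * u 0,
    x 2 + (x 0 - x 7) * u 1 - (u 0 * x 4 + u 1 * x 5 + u 2 * x 6) * u 1,
    x 3 + (x 0 - x 7) * u 2 - (u 0 * x 4 + u 1 * x 5 + u 2 * x 6) * u 2,
    x 4 + (u 1 * x 3 - u 2 * x 2),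
    x 5 + (u 2 * x 1 - u 0 * x 3),
    x 6 + (u 0 * x 2 - u 1 * x 1),
    x 7 + (u 0 * x 4 + u 1 * x 5 + u 2 * x 6)]

/-- `phiF u` as a linear equivalence. -/
def phiE (u : Fin 3 → F) : V F ≃ₗ[F] V F where
  toFun := phiF u
  map_add' x y := by apply ext8 <;> simp [phiF] <;> ring
  map_smul' c x := by apply ext8 <;> simp [phiF] <;> ring
  invFun := phiF (-u)
  left_inv x := by apply ext8 <;> simp [phiF] <;> ring
  right_inv x := by apply ext8 <;> simp [phiF] <;> ring

theorem exists_phi (u : Fin 3 → F) : ∃ g : G2 F, ∀ x, act g x = phiF u x := by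
  obtain ⟨g, hg⟩ := exists_act (phiE u) (by
    intro x y
    show phiF u (zornMul x y) = zornMul (phiF u x) (phiF u y)
    rw [zm, zm]
    apply ext8 <;> simp [phiF] <;> ring)
  exact ⟨g, hg⟩

/-- The swap automorphism. -/
def tauF (x : V F) : V F := ![x 7, - x 4, - x 5, - x 6, - x 1, - x 2, - x 3, x 0]

/-- `tauF` as a linear equivalence. -/
def tauE : V F ≃ₗ[F] V F where
  toFun := tauF
  map_add' x y := by apply ext8 <;> (simp [tauF]; try ring)
  map_smul' c x := by apply ext8 <;> simp [tauF]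
  invFun := tauF
  left_inv x := by apply ext8 <;> simp [tauF]
  right_inv x := by apply ext8 <;> simp [tauF]

theorem exists_tau : ∃ g : G2 F, ∀ x, act g x = tauF x := by
  obtain ⟨g, hg⟩ := exists_act (tauE (F := F)) (by
    intro x y
    show tauF (zornMul x y) = zornMul (tauF x) (tauF y)
    rw [zm, zm]
    apply ext8 <;> simp [tauF] <;> ring)
  exact ⟨g, hg⟩

/-- Root elements of `SL₃`: `a₁ += s a₂ + t a₃`. -/
def upF (s t : F) (x : V F) : V F :=
  ![x 0, x 1 + s * x 2 + t * x 3, x 2, x 3, x 4, x 5 - s * x 4, x 6 - t * x 4, x 7]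

/-- `upF` as a linear equivalence. -/
def upE (s t : F) : V F ≃ₗ[F] V F where
  toFun := upF s t
  map_add' x y := by apply ext8 <;> simp [upF] <;> ring
  map_smul' c x := by apply ext8 <;> simp [upF] <;> ring
  invFun := upF (-s) (-t)
  left_inv x := by apply ext8 <;> simp [upF] <;> ring
  right_inv x := by apply ext8 <;> simp [upF] <;> ring

theorem exists_up (s t : F) : ∃ g : G2 F, ∀ x, act g x = upF s t x := by
  obtain ⟨g, hg⟩ := exists_act (upE s t) (by
    intro x y
    show upF s t (zornMul x y) = zornMul (upF s t x) (upF s t y)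
    rw [zm, zm]
    apply ext8 <;> simp [upF] <;> ring)
  exact ⟨g, hg⟩

/-- Root elements of `SL₃`: `a₂ += s a₁`, `a₃ += t a₁`. -/
def dnF (s t : F) (x : V F) : V F :=
  ![x 0, x 1, x 2 + s * x 1, x 3 + t * x 1, x 4 - s * x 5 - t * x 6, x 5, x 6, x 7]

/-- `dnF` as a linear equivalence. -/
def dnE (s t : F) : V F ≃ₗ[F] V F where
  toFun := dnF s t
  map_add' x y := by apply ext8 <;> simp [dnF] <;> ring
  map_smul' c x := by apply ext8 <;> simp [dnF] <;> ring
  invFun := dnF (-s) (-t)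
  left_inv x := by apply ext8 <;> simp [dnF] <;> ring
  right_inv x := by apply ext8 <;> simp [dnF] <;> ring

theorem exists_dn (s t : F) : ∃ g : G2 F, ∀ x, act g x = dnF s t x := by
  obtain ⟨g, hg⟩ := exists_act (dnE s t) (by
    intro x y
    show dnF s t (zornMul x y) = zornMul (dnF s t x) (dnF s t y)
    rw [zm, zm]
    apply ext8 <;> simp [dnF] <;> ring)
  exact ⟨g, hg⟩

/-- Two vectors in the same orbit. -/
def Rel (x y : V F) : Prop := ∃ g : G2 F, act g x = y

theorem Rel.trans {x y z : V F} (h : Rel x y) (h' : Rel y z) : Rel x z := by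
  obtain ⟨g, rfl⟩ := h
  obtain ⟨g', rfl⟩ := h'
  exact ⟨g' * g, act_mul _ _ _⟩

theorem Rel.nm {x y : V F} (h : Rel x y) : nm y = nm x := by
  obtain ⟨g, rfl⟩ := h
  exact act_nm _ _

theorem rel_phi (u : Fin 3 → F) (x : V F) : Rel x (phiF u x) := by
  obtain ⟨g, hg⟩ := exists_phi u
  exact ⟨g, hg x⟩

theorem rel_tau (x : V F) : Rel x (tauF x) := by
  obtain ⟨g, hg⟩ := exists_tau (F := F)
  exact ⟨g, hg x⟩

theorem rel_up (s t : F) (x : V F) : Rel x (upF s t x) := by
  obtain ⟨g, hg⟩ := exists_up s t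
  exact ⟨g, hg x⟩

theorem rel_dn (s t : F) (x : V F) : Rel x (dnF s t x) := by
  obtain ⟨g, hg⟩ := exists_dn s t
  exact ⟨g, hg x⟩

/-- Step A: move the first coordinate to zero. -/
theorem stepA [CharP F 2] (x : V F) (hx : tr x = 1) :
    ∃ y, Rel x y ∧ y 0 = 0 ∧ y 7 = 1 := by
  have h2 : (2 : F) = 0 := CharTwo.two_eq_zero
  have htr : ∀ {y : V F}, Rel x y → y 0 = 0 → y 7 = 1 := by
    rintro y ⟨g, rfl⟩ h
    have h1 := act_tr g x
    rw [hx, tr, h, zero_add] at h1
    exact h1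
  -- it is enough to solve `u · b = x 0` in the orbit
  have key : ∀ {y : V F}, Rel x y →
      (∃ u : Fin 3 → F, u 0 * y 4 + u 1 * y 5 + u 2 * y 6 = y 0) →
      ∃ y, Rel x y ∧ y 0 = 0 ∧ y 7 = 1 := by
    rintro y hy ⟨u, hu⟩
    have h3 : phiF u y 0 = 0 := by
      simp only [phiF, Matrix.cons_val_zero]
      rw [hu, sub_self]
    exact ⟨_, hy.trans (rel_phi u y), h3, htr (hy.trans (rel_phi u y)) h3⟩
  have key2 : ∀ {y : V F}, Rel x y → (y 4 ≠ 0 ∨ y 5 ≠ 0 ∨ y 6 ≠ 0) →
      ∃ y, Rel x y ∧ y 0 = 0 ∧ y 7 = 1 := by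
    rintro y hy (h | h | h)
    · exact key hy ⟨![y 0 / y 4, 0, 0], by simp [div_mul_cancel₀ _ h]⟩
    · exact key hy ⟨![0, y 0 / y 5, 0], by simp [div_mul_cancel₀ _ h]⟩
    · exact key hy ⟨![0, 0, y 0 / y 6], by simp [div_mul_cancel₀ _ h]⟩
  have key3 : ∀ {y : V F}, Rel x y → (y 1 ≠ 0 ∨ y 2 ≠ 0 ∨ y 3 ≠ 0) →
      ∃ y, Rel x y ∧ y 0 = 0 ∧ y 7 = 1 := by
    intro y hy h
    by_cases hb : y 4 ≠ 0 ∨ y 5 ≠ 0 ∨ y 6 ≠ 0
    · exact key2 hy hb
    · push Not at hb
      obtain ⟨hb4, hb5, hb6⟩ := hb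
      rcases h with h | h | h
      · refine key2 (hy.trans (rel_phi ![0, 1, 0] y)) (Or.inr (Or.inr ?_))
        simp [phiF, hb4, hb5, hb6, h]
      · refine key2 (hy.trans (rel_phi ![1, 0, 0] y)) (Or.inr (Or.inr ?_))
        simp [phiF, hb4, hb5, hb6, h]
      · refine key2 (hy.trans (rel_phi ![1, 0, 0] y)) (Or.inr (Or.inl ?_))
        simp [phiF, hb4, hb5, hb6, h]
  have hrefl : Rel x x := ⟨1, act_one x⟩
  by_cases hb : x 4 ≠ 0 ∨ x 5 ≠ 0 ∨ x 6 ≠ 0
  · exact key2 hrefl hb
  by_cases ha : x 1 ≠ 0 ∨ x 2 ≠ 0 ∨ x 3 ≠ 0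
  · exact key3 hrefl ha
  push Not at hb ha
  refine key3 (rel_phi ![1, 0, 0] x) (Or.inl ?_)
  have h4 : x 0 - x 7 = 1 := by
    rw [tr] at hx
    linear_combination hx - x 7 * h2
  simp [phiF, hb.1, hb.2.1, hb.2.2, ha.1, ha.2.1, ha.2.2, h4]

/-- Step B, norm zero. -/
theorem stepB0 (x : V F) (h0 : x 0 = 0) (h7 : x 7 = 1) (hn : nm x = 0) :
    Rel x ![0, 0, 0, 0, 0, 0, 0, 1] := by
  have hab : x 1 * x 4 + x 2 * x 5 + x 3 * x 6 = 0 := by
    rw [nm, h0] at hn
    linear_combination - hn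
  have r1 := rel_phi ![x 1, x 2, x 3] x
  have e1' : phiF ![x 1, x 2, x 3] x = ![0, 0, 0, 0, x 4, x 5, x 6, 1] := by
    apply ext8 <;> simp only [phiF, h0, h7, Matrix.cons_val]
    · linear_combination - hab
    · linear_combination (-x 1) * hab
    · linear_combination (-x 2) * hab
    · linear_combination (-x 3) * hab
    · ring
    · ring
    · ring
    · linear_combination hab
  rw [e1'] at r1
  have r2 := r1.trans (rel_tau _)
  have r3 := r2.trans (rel_phi ![x 4, x 5, x 6] _)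
  have r4 := r3.trans (rel_tau _)
  convert r4 using 1
  symm
  apply ext8 <;> simp [phiF, tauF]
  all_goals ring

/-- Move a nonzero `a` to the first basis vector. -/
theorem move_a (x : V F) (ha : x 1 ≠ 0 ∨ x 2 ≠ 0 ∨ x 3 ≠ 0) :
    ∃ y, Rel x y ∧ y 0 = x 0 ∧ y 7 = x 7 ∧ y 1 = 1 ∧ y 2 = 0 ∧ y 3 = 0 := by
  have k1 : ∀ {y : V F}, Rel x y → y 0 = x 0 → y 7 = x 7 → y 1 = 1 →
      ∃ y, Rel x y ∧ y 0 = x 0 ∧ y 7 = x 7 ∧ y 1 = 1 ∧ y 2 = 0 ∧ y 3 = 0 := by
    intro y hy h0 h7 h1
    refine ⟨_, hy.trans (rel_dn (- y 2) (- y 3) y), ?_, ?_, ?_, ?_, ?_⟩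
    all_goals simp [dnF, h0, h7, h1]
  have k2 : ∀ {y : V F}, Rel x y → y 0 = x 0 → y 7 = x 7 → y 2 ≠ 0 →
      ∃ y, Rel x y ∧ y 0 = x 0 ∧ y 7 = x 7 ∧ y 1 = 1 ∧ y 2 = 0 ∧ y 3 = 0 := by
    intro y hy h0 h7 h2
    refine k1 (hy.trans (rel_up ((1 - y 1) / y 2) 0 y)) ?_ ?_ ?_
    · simp [upF, h0]
    · simp [upF, h7]
    · simp [upF, div_mul_cancel₀ _ h2]
  have hrefl : Rel x x := ⟨1, act_one x⟩
  by_cases h2 : x 2 ≠ 0
  · exact k2 hrefl rfl rfl h2
  by_cases h3 : x 3 ≠ 0
  · refine k1 (rel_up 0 ((1 - x 1) / x 3) x) ?_ ?_ ?_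
    · simp [upF]
    · simp [upF]
    · simp [upF, div_mul_cancel₀ _ h3]
  push Not at h2 h3
  have h1 : x 1 ≠ 0 := by
    rcases ha with h | h | h
    · exact h
    · exact absurd h2 h
    · exact absurd h3 h
  refine k2 (rel_dn 1 0 x) ?_ ?_ ?_
  · simp [dnF]
  · simp [dnF]
  · simp [dnF, h2, h1]

/-- Step B, norm nonzero. -/
theorem stepB1 (x : V F) (h0 : x 0 = 0) (h7 : x 7 = 1) (n : F) (hn : nm x = n) (hn0 : n ≠ 0) :
    Rel x ![0, 1, 0, 0, -n, 0, 0, 1] := by
  obtain ⟨y, hxy, hy0, hy7, hy1, hy2, hy3⟩ := move_a x (by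
    by_contra h
    push Not at h
    apply hn0
    rw [← hn, nm, h0, h.1, h.2.1, h.2.2]
    ring)
  have hny := hxy.nm
  rw [hn, nm, hy0, hy7, h0, h7, hy1, hy2, hy3] at hny
  have h4 : y 4 = - n := by linear_combination - hny
  have hn0' : -n ≠ 0 := neg_ne_zero.mpr hn0
  have r := hxy.trans (rel_up (y 5 / (-n)) (y 6 / (-n)) y)
  convert r using 1
  symm
  apply ext8
  · simp [upF, hy0, h0]
  · simp [upF, hy1, hy2, hy3]
  · simp [upF, hy2]
  · simp [upF, hy3]
  · simp [upF, h4]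
  · simp only [upF, h4, div_mul_cancel₀ _ hn0']; simp
  · simp only [upF, h4, div_mul_cancel₀ _ hn0']; simp
  · simp [upF, hy7, h7]

/-- The stabiliser of the pair `{x, x + 1}`. -/
def st (x : V F) [CharP F 2] : Subgroup (G2 F) where
  carrier := {g | act g x = x ∨ act g x = x + e1}
  mul_mem' {g h} hg hh := by
    rw [Set.mem_ofPred_eq] at *
    rw [act_mul]
    have h2 : ∀ z : V F, z + z = 0 := fun z => by
      ext i; exact CharTwo.add_self_eq_zero _
    rcases hh with hh | hh <;> rcases hg with hg | hg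
    · left; rw [hh, hg]
    · right; rw [hh, hg]
    · right; rw [hh, map_add, hg, act_e1]
    · left; rw [hh, map_add, hg, act_e1, add_assoc, h2, add_zero]
  one_mem' := Or.inl (act_one x)
  inv_mem' {g} hg := by
    rw [Set.mem_ofPred_eq] at *
    have h2 : ∀ z : V F, z + z = 0 := fun z => by
      ext i; exact CharTwo.add_self_eq_zero _
    rcases hg with hg | hg
    · left
      apply act_inj g
      rw [act_act_inv, hg]
    · right
      apply act_inj g
      rw [act_act_inv, map_add, hg, act_e1, add_assoc, h2, add_zero]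

theorem mem_st [CharP F 2] {x : V F} {g : G2 F} :
    g ∈ st x ↔ act g x = x ∨ act g x = x + e1 := Iff.rfl

/-- Every functional is represented by a vector. -/
theorem exists_repr (f : V F →ₗ[F] F) : ∃ w, ∀ v, f v = bf w v := by
  refine ⟨![f (Pi.single 7 1), - f (Pi.single 4 1), - f (Pi.single 5 1), - f (Pi.single 6 1),
    - f (Pi.single 1 1), - f (Pi.single 2 1), - f (Pi.single 3 1), f (Pi.single 0 1)], fun v => ?_⟩
  have h := LinearMap.pi_apply_eq_sum_univ f v
  rw [h, Fin.sum_univ_eight]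
  have hs : ∀ i : Fin 8, (fun j : Fin 8 => if i = j then (1 : F) else 0) = Pi.single i 1 := by
    intro i
    funext j
    by_cases hij : i = j
    · subst hij; simp
    · simp [hij, Pi.single_apply, Ne.symm hij]
  simp only [hs, smul_eq_mul, bf, Matrix.cons_val]
  ring

/-- **Dye's theorem for `G₂`**. -/
theorem exists_mem_st [CharP F 2] (g : G2 F) : ∃ x : V F, tr x = 1 ∧ g ∈ st x := by
  have h2 : (2 : F) = 0 := CharTwo.two_eq_zero
  let x0 : V F := ![1, 0, 0, 0, 0, 0, 0, 0]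
  have hx0 : tr x0 = 1 := by simp [tr, x0]
  clear_value x0
  let trL : V F →ₗ[F] F :=
    { toFun := tr
      map_add' := tr_add
      map_smul' := fun c x => tr_smul c x }
  let U : Submodule F (V F) := (LinearMap.ker trL).map (act g - LinearMap.id) ⊔ F ∙ (e1 : V F)
  have hy : act g x0 - x0 ∈ U := by
    by_contra hcon
    obtain ⟨f, hf1, hf2⟩ := Submodule.exists_le_ker_of_notMem hcon
    obtain ⟨w, hw⟩ := exists_repr f
    have hwe : tr w = 0 := by
      rw [← bf_e1, bf_comm, ← hw]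
      exact hf2 (Submodule.mem_sup_right (Submodule.mem_span_singleton_self _))
    have hz : ∀ z, tr z = 0 → bf (act g⁻¹ w - w) z = 0 := by
      intro z hz
      have h1 : f (act g z - z) = 0 := by
        apply hf2
        apply Submodule.mem_sup_left
        exact ⟨z, hz, rfl⟩
      rw [hw] at h1
      have h3 : bf (act g⁻¹ w) z = bf w (act g z) := by
        rw [← act_bf g, act_act_inv]
      have h4 : bf w (act g z - z) = bf w (act g z) - bf w z := by
        simp only [bf, Pi.sub_apply]; ring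
      have h5 : bf (act g⁻¹ w - w) z = bf (act g⁻¹ w) z - bf w z := by
        simp only [bf, Pi.sub_apply]; ring
      rw [h5, h3, ← h4, h1]
    obtain ⟨d, hd⟩ : ∃ d, d = act g⁻¹ w - w := ⟨_, rfl⟩
    rw [← hd] at hz
    have hd1 : d = d 0 • e1 := by
      have k1 := hz ![0, 0, 0, 0, 1, 0, 0, 0] (by simp [tr])
      have k2 := hz ![0, 0, 0, 0, 0, 1, 0, 0] (by simp [tr])
      have k3 := hz ![0, 0, 0, 0, 0, 0, 1, 0] (by simp [tr])
      have k4 := hz ![0, 1, 0, 0, 0, 0, 0, 0] (by simp [tr])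
      have k5 := hz ![0, 0, 1, 0, 0, 0, 0, 0] (by simp [tr])
      have k6 := hz ![0, 0, 0, 1, 0, 0, 0, 0] (by simp [tr])
      have k7 := hz ![1, 0, 0, 0, 0, 0, 0, -1] (by simp [tr])
      simp only [bf, Matrix.cons_val] at k1 k2 k3 k4 k5 k6 k7
      apply ext8 <;> simp only [e1, Pi.smul_apply, smul_eq_mul, Matrix.cons_val]
      · ring
      · linear_combination -k1
      · linear_combination -k2
      · linear_combination -k3
      · linear_combination -k4
      · linear_combination -k5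
      · linear_combination -k6
      · linear_combination k7
    have hw1 : act g⁻¹ w = w + d := by rw [hd]; abel
    have hn := act_nm g⁻¹ w
    rw [hw1, hd1, nm_add, bf_smul_right, bf_comm, bf_e1, hwe] at hn
    have hn2 : nm (d 0 • e1 : V F) = d 0 ^ 2 := by
      simp only [nm, e1, Pi.smul_apply, smul_eq_mul, Matrix.cons_val]; ring
    rw [hn2] at hn
    have hd0 : d 0 = 0 := by
      have : d 0 ^ 2 = 0 := by linear_combination hn
      exact pow_eq_zero_iff two_ne_zero |>.mp this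
    have hw2 : act g w = w := by
      have : act g⁻¹ w = w := by rw [hw1, hd1, hd0, zero_smul, add_zero]
      rw [← this, act_act_inv, this]
    apply hf1
    have h5 : bf w (act g x0 - x0) = bf w (act g x0) - bf w x0 := by
      simp only [bf, Pi.sub_apply]; ring
    have h6 := act_bf g w x0
    rw [hw2] at h6
    rw [hw, h5, h6, sub_self]
  obtain ⟨u, hu, v, hv, huv⟩ := Submodule.mem_sup.mp hy
  obtain ⟨z, hz, rfl⟩ := hu
  obtain ⟨c, rfl⟩ := Submodule.mem_span_singleton.mp hv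
  have hz' : tr z = 0 := hz
  have h3 : act g z - z + c • e1 = act g x0 - x0 := huv
  have htr : tr (x0 - z) = 1 := by
    have : tr (x0 - z) = tr x0 - tr z := by simp only [tr, Pi.sub_apply]; ring
    rw [this, hx0, hz', sub_zero]
  have hgx : act g (x0 - z) = (x0 - z) + c • e1 := by
    rw [map_sub]
    have : act g x0 = act g z - z + c • e1 + x0 := by rw [h3]; abel
    rw [this]
    abel
  refine ⟨x0 - z, htr, ?_⟩
  have hn := act_nm g (x0 - z)
  rw [hgx, nm_add, bf_smul_right, bf_comm, bf_e1, htr] at hn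
  have hn2 : nm (c • e1 : V F) = c ^ 2 := by
    simp only [nm, e1, Pi.smul_apply, smul_eq_mul, Matrix.cons_val]; ring
  rw [hn2] at hn
  have hc : c * (c + 1) = 0 := by linear_combination hn
  rw [mem_st, hgx]
  rcases mul_eq_zero.mp hc with h | h
  · left; rw [h, zero_smul, add_zero]
  · right
    have : c = 1 := by linear_combination h - h2
    rw [this, one_smul]

open Classical in
/-- The normal form of an element of trace one. -/
noncomputable def nf (n : F) : V F := if n = 0 then ![0, 0, 0, 0, 0, 0, 0, 1] else ![0, 1, 0, 0, -n, 0, 0, 1]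

theorem rel_nf [CharP F 2] (x : V F) (hx : tr x = 1) : Rel x (nf (nm x)) := by
  obtain ⟨y, hxy, h0, h7⟩ := stepA x hx
  rw [nf]
  split_ifs with h
  · exact hxy.trans (stepB0 y h0 h7 (hxy.nm.trans h))
  · exact hxy.trans (stepB1 y h0 h7 _ hxy.nm h)

theorem conj_st [CharP F 2] {x y : V F} (h : Rel x y) :
    ∃ h : G2 F, ∀ g : G2 F, g ∈ st x → h * g * h⁻¹ ∈ st y := by
  obtain ⟨h, rfl⟩ := h
  refine ⟨h, fun g hg => ?_⟩
  rw [mem_st, act_mul, act_mul, act_inv_act]
  rcases hg with hg | hg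
  · left; rw [hg]
  · right; rw [hg, map_add, act_e1]

theorem gtwo_even [Finite F] [CharP F 2] : ∃ H K : Subgroup (G2 F), H ≠ ⊤ ∧ K ≠ ⊤ ∧
    ∀ g : G2 F, ∃ x : G2 F, x * g * x⁻¹ ∈ H ∨ x * g * x⁻¹ ∈ K := by
  have h2 : (2 : F) = 0 := CharTwo.two_eq_zero
  obtain ⟨n, hn⟩ := Cfsg.Agent.H156.exists_not_P F
  have hn0 : n ≠ 0 := by
    rintro rfl
    exact hn ⟨0, by ring⟩
  refine ⟨st (nf 0), st (nf n), ?_, ?_, ?_⟩
  · intro h
    obtain ⟨g, hg⟩ := exists_phi (![1, 0, 0] : Fin 3 → F)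
    have hmem : g ∈ st (nf 0) := by rw [h]; trivial
    rw [mem_st, hg] at hmem
    rcases hmem with h | h
    · have := congrFun h 1
      simp [phiF, nf] at this
    · have := congrFun h 1
      simp [phiF, nf, e1] at this
  · intro h
    obtain ⟨g, hg⟩ := exists_dn (1 : F) 0
    have hmem : g ∈ st (nf n) := by rw [h]; trivial
    rw [mem_st, hg] at hmem
    rcases hmem with h | h
    · have := congrFun h 2
      simp [dnF, nf, hn0] at this
    · have := congrFun h 2
      simp [dnF, nf, e1, hn0] at this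
  · intro g
    obtain ⟨x, hx, hgx⟩ := exists_mem_st g
    -- change `x` to `x + c`
    have hshift : ∀ c : F, tr (x + c • e1) = 1 ∧ nm (x + c • e1) = nm x + c ^ 2 + c ∧
        g ∈ st (x + c • e1) := by
      intro c
      refine ⟨?_, ?_, ?_⟩
      · rw [tr_add, tr_smul, tr_e1, h2, hx]; ring
      · rw [nm_add, bf_smul_right, bf_comm, bf_e1, hx]
        have hn2 : nm (c • e1 : V F) = c ^ 2 := by
          simp only [nm, e1, Pi.smul_apply, smul_eq_mul, Matrix.cons_val]; ring
        rw [hn2]; ring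
      · rw [mem_st, map_add, map_smul, act_e1]
        rcases hgx with h | h
        · left; rw [h]
        · right; rw [h]; abel
    by_cases hP : ∃ d : F, d ^ 2 + d = nm x
    · obtain ⟨d, hd⟩ := hP
      obtain ⟨k1, k2, k3⟩ := hshift d
      have k4 : nm (x + d • e1) = 0 := by rw [k2]; linear_combination - hd + (d ^ 2 + d) * h2
      have r := rel_nf _ k1
      rw [k4] at r
      obtain ⟨h, hh⟩ := conj_st r
      exact ⟨h, Or.inl (hh g k3)⟩
    · obtain ⟨d, hd⟩ := Cfsg.Agent.H156.add_mem_P hn hP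
      obtain ⟨k1, k2, k3⟩ := hshift d
      have k4 : nm (x + d • e1) = n := by rw [k2]; linear_combination hd + (nm x) * h2
      have r := rel_nf _ k1
      rw [k4] at r
      obtain ⟨h, hh⟩ := conj_st r
      exact ⟨h, Or.inr (hh g k3)⟩

end Cfsg.Agent.H156.GTwoEven
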