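import Mathlib
import Cfsg.Agent.H954.FieldSub
import Cfsg.Agent.H156.Cov

set_option autoImplicit false

/-!
# `PSL_n(q)`, `n = 2, 3, 4`, is the union of the conjugates of two proper subgroups (helper156)

`exists_comp`: if all irreducible factors of `m` have degree divisible by the degree of the irreducible `p`,
then `m ∣ p ∘ h` for some `h`; so an endomorphism with such a minimal polynomial commutes with a copy
of `F[X]/(p)` (`exists_commuting`).
-/

namespace Cfsg.Agent.H156.PSLCov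

open Module Polynomial Matrix

variable {F : Type*} [Field F] [Fintype F]

/-- A root of `p` modulo an irreducible polynomial whose degree is divisible by the degree of `p`. -/
theorem exists_comp_irred {p f : F[X]} (hp : Irreducible p) (hf : Irreducible f)
    (h : p.natDegree ∣ f.natDegree) : ∃ g : F[X], f ∣ p.comp g := by
  have hpF : Fact (Irreducible p) := ⟨hp⟩
  have hfF : Fact (Irreducible f) := ⟨hf⟩
  have hfinp : FiniteDimensional F (AdjoinRoot p) := (AdjoinRoot.powerBasis hp.ne_zero).finite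
  have hfinf : FiniteDimensional F (AdjoinRoot f) := (AdjoinRoot.powerBasis hf.ne_zero).finite
  have hFp : Finite (AdjoinRoot p) := Module.finite_of_finite F
  have hFf : Finite (AdjoinRoot f) := Module.finite_of_finite F
  have h1 : finrank F (AdjoinRoot p) = p.natDegree := finrank_quotient_span_eq_natDegree
  have h2 : finrank F (AdjoinRoot f) = f.natDegree := finrank_quotient_span_eq_natDegree
  obtain ⟨φ⟩ := FiniteField.nonempty_algHom_of_finrank_dvd (F := F) (K := AdjoinRoot p)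
    (L := AdjoinRoot f) (by rw [h1, h2]; exact h)
  obtain ⟨g, hg⟩ := AdjoinRoot.mk_surjective (φ (AdjoinRoot.root p))
  refine ⟨g, ?_⟩
  rw [← AdjoinRoot.mk_eq_zero]
  have h3 : aeval (AdjoinRoot.mk f g) p = 0 := by
    rw [hg, aeval_algHom_apply, AdjoinRoot.aeval_eq, AdjoinRoot.mk_self, map_zero]
  have h4 : AdjoinRoot.mk f (p.comp g) = aeval (AdjoinRoot.mk f g) p := by
    have := hom_eval₂ p C (AdjoinRoot.mk f) g
    rw [Polynomial.comp, this]
    rfl
  rw [h4, h3]

theorem comp_pow_card (p g : F[X]) (N : ℕ) :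
    p.comp (expand F (Fintype.card F ^ N) g) = (p.comp g) ^ (Fintype.card F ^ N) := by
  induction N generalizing g with
  | zero => simp
  | succ N ih =>
    rw [pow_succ, expand_mul, ih, FiniteField.expand_card]
    have : p.comp (g ^ Fintype.card F) = (p.comp g) ^ Fintype.card F := by
      rw [← FiniteField.expand_card, ← FiniteField.expand_card, expand_eq_comp_X_pow,
        expand_eq_comp_X_pow, comp_assoc]
    rw [this, ← pow_mul, mul_comm]

theorem exists_comp {p : F[X]} (hp : Irreducible p) (m : F[X]) (hm : m ≠ 0)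
    (h : ∀ f : F[X], Irreducible f → f ∣ m → p.natDegree ∣ f.natDegree) :
    ∃ g : F[X], m ∣ p.comp g := by
  induction m using UniqueFactorizationMonoid.induction_on_coprime with
  | h0 => exact absurd rfl hm
  | h1 hu => exact ⟨0, hu.dvd⟩
  | @hpr f i hf =>
    by_cases hi : i = 0
    · subst hi
      exact ⟨0, by rw [pow_zero]; exact one_dvd _⟩
    · obtain ⟨g, hg⟩ := exists_comp_irred hp hf.irreducible (h f hf.irreducible (dvd_pow_self f hi))
      refine ⟨expand F (Fintype.card F ^ i) g, ?_⟩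
      rw [comp_pow_card]
      have h1 : i ≤ Fintype.card F ^ i := (Nat.lt_pow_self Fintype.one_lt_card).le
      exact (pow_dvd_pow f h1).trans (pow_dvd_pow_of_dvd hg _)
  | @hcp x y hxy hx hy =>
    have hx0 : x ≠ 0 := left_ne_zero_of_mul hm
    have hy0 : y ≠ 0 := right_ne_zero_of_mul hm
    obtain ⟨gx, hgx⟩ := hx hx0 (fun f hf hfx => h f hf (hfx.mul_right y))
    obtain ⟨gy, hgy⟩ := hy hy0 (fun f hf hfy => h f hf (hfy.mul_left x))
    have hco : IsCoprime x y := hxy.isCoprime
    obtain ⟨u, v, huv⟩ := hco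
    have hsub : ∀ a b : F[X], a - b ∣ p.comp a - p.comp b := fun a b => by
      have := sub_dvd_eval_sub a b (p.map C)
      rwa [eval_map, eval_map] at this
    refine ⟨gx * (v * y) + gy * (u * x), ?_⟩
    have h1 : x ∣ p.comp (gx * (v * y) + gy * (u * x)) := by
      have h2 : x ∣ gx * (v * y) + gy * (u * x) - gx :=
        ⟨gy * u - gx * u, by linear_combination gx * huv⟩
      have h3 := h2.trans (hsub _ _)
      exact (dvd_sub_left hgx).mp h3
    have h1' : y ∣ p.comp (gx * (v * y) + gy * (u * x)) := by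
      have h2 : y ∣ gx * (v * y) + gy * (u * x) - gy :=
        ⟨gx * v - gy * v, by linear_combination gy * huv⟩
      have h3 := h2.trans (hsub _ _)
      exact (dvd_sub_left hgy).mp h3
    exact hxy.isCoprime.mul_dvd h1 h1'

/-- An endomorphism all of whose eigenvalues have degree divisible by the degree of `p` commutes with
a copy of `F[X]/(p)`. -/
theorem exists_commuting {V : Type*} [AddCommGroup V] [Module F V] [FiniteDimensional F V]
    {p : F[X]} (hp : Irreducible p) (x : Module.End F V)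
    (h : ∀ f : F[X], Irreducible f → f ∣ minpoly F x → p.natDegree ∣ f.natDegree) :
    ∃ ψ : AdjoinRoot p →ₐ[F] Module.End F V, ∀ a, Commute x (ψ a) := by
  have hm : minpoly F x ≠ 0 := minpoly.ne_zero (Algebra.IsIntegral.isIntegral x)
  obtain ⟨g, c, hg⟩ := exists_comp hp _ hm h
  have hJ : aeval (aeval x g) p = 0 := by
    rw [← aeval_comp, hg, map_mul, minpoly.aeval, zero_mul]
  let χ : AdjoinRoot p →ₐ[F] Module.End F V :=
    Ideal.Quotient.liftₐ (Ideal.span {p}) (aeval (aeval x g)) (by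
      intro a ha
      obtain ⟨b, rfl⟩ := Ideal.mem_span_singleton.1 ha
      rw [map_mul, hJ, zero_mul])
  refine ⟨χ, fun a => ?_⟩
  obtain ⟨b, rfl⟩ := AdjoinRoot.mk_surjective a
  have h1 : χ (AdjoinRoot.mk p b) = aeval (aeval x g) b := rfl
  rw [h1, ← aeval_comp]
  have h2 : Commute (aeval x (X : F[X])) (aeval x (b.comp g)) := by
    rw [Commute, SemiconjBy, ← map_mul, ← map_mul, mul_comm]
  rwa [aeval_X] at h2

/-- The centraliser of a field. -/
def cent {n : ℕ} {L : Type*} [Field L] [Algebra F L] (φ : L →ₐ[F] Matrix (Fin n) (Fin n) F) :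
    Subgroup (Matrix.SpecialLinearGroup (Fin n) F) where
  carrier := {x | ∀ a, Commute (x : Matrix (Fin n) (Fin n) F) (φ a)}
  mul_mem' {x y} hx hy := by
    intro a
    rw [Matrix.SpecialLinearGroup.coe_mul]
    exact (hx a).mul_left (hy a)
  one_mem' := by
    intro a
    rw [Matrix.SpecialLinearGroup.coe_one]
    exact Commute.one_left _
  inv_mem' {x} hx := by
    intro a
    have e1 : (x : Matrix (Fin n) (Fin n) F) * ((x⁻¹ : Matrix.SpecialLinearGroup (Fin n) F) : Matrix (Fin n) (Fin n) F) = 1 := by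
      rw [← Matrix.SpecialLinearGroup.coe_mul, mul_inv_cancel]; rfl
    have e2 : ((x⁻¹ : Matrix.SpecialLinearGroup (Fin n) F) : Matrix (Fin n) (Fin n) F) * (x : Matrix (Fin n) (Fin n) F) = 1 := by
      rw [← Matrix.SpecialLinearGroup.coe_mul, inv_mul_cancel]; rfl
    have h := hx a
    rw [Commute, SemiconjBy] at h ⊢
    calc ((x⁻¹ : Matrix.SpecialLinearGroup (Fin n) F) : Matrix (Fin n) (Fin n) F) * φ a
        = ((x⁻¹ : Matrix.SpecialLinearGroup (Fin n) F) : Matrix (Fin n) (Fin n) F) * (φ a *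
          (x : Matrix (Fin n) (Fin n) F)) * ((x⁻¹ : Matrix.SpecialLinearGroup (Fin n) F) : Matrix (Fin n) (Fin n) F) := by
          rw [mul_assoc, mul_assoc, e1, mul_one]
      _ = φ a * ((x⁻¹ : Matrix.SpecialLinearGroup (Fin n) F) : Matrix (Fin n) (Fin n) F) := by
          rw [← h, ← mul_assoc, e2, one_mul]

omit [Fintype F] in
theorem mem_cent {n : ℕ} {L : Type*} [Field L] [Algebra F L] {φ : L →ₐ[F] Matrix (Fin n) (Fin n) F}
    {x : Matrix.SpecialLinearGroup (Fin n) F} :
    x ∈ cent φ ↔ ∀ a, Commute (x : Matrix (Fin n) (Fin n) F) (φ a) := Iff.rfl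

/-- Conjugation into the centraliser of a given copy. -/
theorem exists_conj_cent {n : ℕ} [NeZero n] {L : Type*} [Field L] [Algebra F L] [FiniteDimensional F L]
    (φ : L →ₐ[F] Matrix (Fin n) (Fin n) F) (x : Matrix.SpecialLinearGroup (Fin n) F)
    (ψ : L →ₐ[F] Module.End F (Fin n → F))
    (h : ∀ a, Commute (Matrix.toLin' (x : Matrix (Fin n) (Fin n) F)) (ψ a)) :
    ∃ P : Matrix.SpecialLinearGroup (Fin n) F, P * x * P⁻¹ ∈ cent φ := by
  have : Finite L := Module.finite_of_finite F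
  let φ' : L →ₐ[F] Module.End F (Fin n → F) := (Matrix.toLinAlgEquiv' (R := F) (n := Fin n)).toAlgHom.comp φ
  have hφ' : ∀ a, φ' a = Matrix.toLin' (φ a) := fun a => rfl
  obtain ⟨e, he⟩ := Cfsg.Agent.H954.FieldSub.exists_equiv_comm ψ φ'
  have hdet : LinearMap.det (e : (Fin n → F) →ₗ[F] (Fin n → F)) ≠ 0 := e.isUnit_det'.ne_zero
  obtain ⟨c, hc, hcd⟩ := Cfsg.Agent.H954.FieldSub.exists_det_eq φ' (inv_ne_zero hdet)
  let e' : (Fin n → F) ≃ₗ[F] (Fin n → F) := e.trans c
  have he' : ∀ a v, e' (ψ a v) = φ' a (e' v) := fun a v => by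
    simp only [e', LinearEquiv.trans_apply, he, hc]
  have hd : LinearMap.det (e' : (Fin n → F) →ₗ[F] (Fin n → F)) = 1 := by
    have : (e' : (Fin n → F) →ₗ[F] (Fin n → F)) = (c : (Fin n → F) →ₗ[F] (Fin n → F)) ∘ₗ
        (e : (Fin n → F) →ₗ[F] (Fin n → F)) := rfl
    rw [this, LinearMap.det_comp, hcd, inv_mul_cancel₀ hdet]
  obtain ⟨Q, hQ⟩ : ∃ Q : Matrix.SpecialLinearGroup (Fin n) F,
      Matrix.toLin' (Q : Matrix (Fin n) (Fin n) F) = (e' : (Fin n → F) →ₗ[F] (Fin n → F)) :=
    ⟨⟨LinearMap.toMatrix' (e' : (Fin n → F) →ₗ[F] (Fin n → F)), by rw [LinearMap.det_toMatrix', hd]⟩,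
      Matrix.toLin'_toMatrix' _⟩
  refine ⟨Q, fun a => ?_⟩
  have e1 : Matrix.toLin' ((Q⁻¹ : Matrix.SpecialLinearGroup (Fin n) F) : Matrix (Fin n) (Fin n) F) =
      (e'.symm : (Fin n → F) →ₗ[F] (Fin n → F)) := by
    have h1 : Matrix.toLin' ((Q⁻¹ : Matrix.SpecialLinearGroup (Fin n) F) : Matrix (Fin n) (Fin n) F) ∘ₗ
        (e' : (Fin n → F) →ₗ[F] (Fin n → F)) = LinearMap.id := by
      rw [← hQ, ← Matrix.toLin'_mul, ← Matrix.SpecialLinearGroup.coe_mul, inv_mul_cancel]
      simp
    ext1 i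
    ext1
    have h2 := LinearMap.congr_fun h1 (e'.symm (LinearMap.single F (fun _ => F) i 1))
    simpa using h2
  apply (Matrix.toLinAlgEquiv' (R := F) (n := Fin n)).injective
  have hl : ∀ A : Matrix (Fin n) (Fin n) F, Matrix.toLinAlgEquiv' A = Matrix.toLin' A := fun A => rfl
  rw [hl, hl, Matrix.toLin'_mul, Matrix.toLin'_mul, Matrix.SpecialLinearGroup.coe_mul,
    Matrix.SpecialLinearGroup.coe_mul, Matrix.toLin'_mul, Matrix.toLin'_mul, hQ, e1]
  ext1 i
  ext1
  simp only [LinearMap.comp_apply, LinearEquiv.coe_coe]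
  obtain ⟨w, hw⟩ : ∃ w, e' w = (LinearMap.single F (fun _ => F) i 1) := e'.surjective _
  have h3 : ∀ a v, φ' a v = Matrix.toLin' (φ a) v := fun a v => rfl
  rw [← hw, ← h3, ← h3, ← he', e'.symm_apply_apply, e'.symm_apply_apply, ← he']
  have h4 := LinearMap.congr_fun (h a) w
  rw [Module.End.mul_apply, Module.End.mul_apply] at h4
  rw [h4]

omit [Fintype F] in
/-- The centre lies in the centraliser of any field. -/
theorem center_le_cent {n : ℕ} {L : Type*} [Field L] [Algebra F L] (φ : L →ₐ[F] Matrix (Fin n) (Fin n) F) :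
    Subgroup.center (Matrix.SpecialLinearGroup (Fin n) F) ≤ cent φ := by
  intro z hz a
  rw [Matrix.SpecialLinearGroup.mem_center_iff] at hz
  obtain ⟨r, _, hr⟩ := hz
  rw [← hr]
  exact Matrix.scalar_commute r (fun r' => mul_comm r r') _

/-- The centraliser of a proper extension field is a proper subgroup. -/
theorem cent_ne_top {n : ℕ} {L : Type*} [Field L] [Algebra F L] (φ : L →ₐ[F] Matrix (Fin n) (Fin n) F)
    [NeZero n] (hL : finrank F L ≠ 1) : cent φ ≠ ⊤ := by
  intro h
  apply hL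
  rw [← Subalgebra.bot_eq_top_iff_finrank_eq_one, eq_top_iff]
  intro a _
  have h1 : φ a ∈ Set.range (Matrix.scalar (Fin n)) := by
    rw [Matrix.mem_range_scalar_iff_commute_single]
    intro i j hij
    have h2 : (⟨Matrix.transvection i j 1, Matrix.det_transvection_of_ne i j hij 1⟩ :
        Matrix.SpecialLinearGroup (Fin n) F) ∈ cent φ := by rw [h]; trivial
    have h3 := h2 a
    have h4 : Commute (Matrix.transvection i j (1 : F)) (φ a) := h3
    rw [Matrix.transvection] at h4
    have h5 : Commute (Matrix.single i j (1 : F)) (φ a) := by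
      rw [Commute, SemiconjBy] at h4 ⊢
      rw [add_mul, mul_add, one_mul, mul_one] at h4
      exact add_left_cancel h4
    exact h5
  obtain ⟨c, hc⟩ := h1
  rw [Algebra.mem_bot]
  refine ⟨c, ?_⟩
  apply (φ : L →+* Matrix (Fin n) (Fin n) F).injective
  rw [RingHom.coe_coe, ← hc, AlgHom.commutes]
  rfl

theorem main {n : ℕ} (hn : 2 ≤ n) {p : F[X]} (hp : Irreducible p) (hp2 : 2 ≤ p.natDegree)
    (h : ∀ f : F[X], Irreducible f → f.natDegree ≠ 1 → f.natDegree + 1 ≠ n → f.natDegree ≤ n →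
      p.natDegree ∣ f.natDegree) :
    ∃ H K : Subgroup (Matrix.ProjectiveSpecialLinearGroup (Fin n) F), H ≠ ⊤ ∧ K ≠ ⊤ ∧
      ∀ g : (Matrix.ProjectiveSpecialLinearGroup (Fin n) F),
        ∃ x : (Matrix.ProjectiveSpecialLinearGroup (Fin n) F), x * g * x⁻¹ ∈ H ∨ x * g * x⁻¹ ∈ K := by
  classical
  have : NeZero n := ⟨by omega⟩
  have hpF : Fact (Irreducible p) := ⟨hp⟩
  have hfinp : FiniteDimensional F (AdjoinRoot p) := (AdjoinRoot.powerBasis hp.ne_zero).finite
  have hrk : finrank F (AdjoinRoot p) = p.natDegree := finrank_quotient_span_eq_natDegree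
  have hn0 : Nontrivial (Fin n) := by
    obtain ⟨k, rfl⟩ : ∃ k, n = k + 2 := ⟨n - 2, by omega⟩
    infer_instance
  -- two distinct points
  let i0 : Fin n := ⟨0, by omega⟩
  let i1 : Fin n := ⟨1, by omega⟩
  have hi : i0 ≠ i1 := by
    intro h
    have := congrArg Fin.val h
    simp [i0, i1] at this
  have h0 : (Pi.single i0 1 : Fin n → F) ≠ 0 := by simp
  have h1 : (Pi.single i1 1 : Fin n → F) ≠ 0 := by simp
  let D0 : Projectivization F (Fin n → F) := Projectivization.mk F _ h0
  let D1 : Projectivization F (Fin n → F) := Projectivization.mk F _ h1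
  have hD : D0 ≠ D1 := by
    intro h
    rw [Projectivization.mk_eq_mk_iff'] at h
    obtain ⟨a, ha⟩ := h
    have := congrFun ha i0
    simp [hi] at this
  have htrans : MulAction.IsPretransitive (Matrix.SpecialLinearGroup (Fin n) F) (Projectivization F (Fin n → F)) :=
    inferInstance
  let H : Subgroup (Matrix.SpecialLinearGroup (Fin n) F) := MulAction.stabilizer _ D0
  have hH : H ≠ ⊤ := by
    intro h
    obtain ⟨x, hx⟩ := htrans.exists_smul_eq D0 D1
    have : x ∈ H := by rw [h]; trivial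
    rw [MulAction.mem_stabilizer_iff] at this
    exact hD (this.symm.trans hx)
  have hHc : Subgroup.center (Matrix.SpecialLinearGroup (Fin n) F) ≤ H := by
    rw [← Projectivization.SL_mulAction_ker]
    intro x hx
    rw [MonoidHom.mem_ker] at hx
    rw [MulAction.mem_stabilizer_iff]
    have := Equiv.Perm.ext_iff.mp hx D0
    exact this
  -- elements with an eigenvector
  have hev : ∀ x : Matrix.SpecialLinearGroup (Fin n) F,
      (∃ v : Fin n → F, v ≠ 0 ∧ ∃ c : F, Matrix.toLin' (x : Matrix (Fin n) (Fin n) F) v = c • v) →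
      ∃ P : Matrix.SpecialLinearGroup (Fin n) F, P * x * P⁻¹ ∈ H := by
    rintro x ⟨v, hv, c, hc⟩
    obtain ⟨P, hP⟩ := htrans.exists_smul_eq (Projectivization.mk F v hv) D0
    refine ⟨P, ?_⟩
    rw [MulAction.mem_stabilizer_iff, mul_smul, mul_smul, ← hP, inv_smul_smul]
    congr 1
    have hx0 : Matrix.toLin' (x : Matrix (Fin n) (Fin n) F) v ≠ 0 := by
      intro h
      apply hv
      have := (Matrix.SpecialLinearGroup.toLin' x).injective (a₁ := v) (a₂ := 0)
      apply this
      rw [map_zero]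
      exact h
    have hsm : x • Projectivization.mk F v hv =
        Projectivization.mk F (Matrix.toLin' (x : Matrix (Fin n) (Fin n) F) v) hx0 := rfl
    rw [hsm, Projectivization.mk_eq_mk_iff']
    exact ⟨c, hc.symm⟩
  -- elements without an eigenvector
  have hnev : ∀ x : Matrix.SpecialLinearGroup (Fin n) F,
      (¬ ∃ v : Fin n → F, v ≠ 0 ∧ ∃ c : F, Matrix.toLin' (x : Matrix (Fin n) (Fin n) F) v = c • v) →
      ∃ ψ : AdjoinRoot p →ₐ[F] Module.End F (Fin n → F),
        ∀ a, Commute (Matrix.toLin' (x : Matrix (Fin n) (Fin n) F)) (ψ a) := by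
    intro x hx
    have hroot : ∀ c : F, ¬ (LinearMap.charpoly (Matrix.toLin' (x : Matrix (Fin n) (Fin n) F))).IsRoot c := by
      intro c hc
      rw [← Module.End.hasEigenvalue_iff_isRoot_charpoly] at hc
      obtain ⟨v, hv⟩ := hc.exists_hasEigenvector
      exact hx ⟨v, hv.2, c, hv.apply_eq_smul⟩
    have hdeg : (LinearMap.charpoly (Matrix.toLin' (x : Matrix (Fin n) (Fin n) F))).natDegree = n := by
      rw [LinearMap.charpoly_natDegree, Module.finrank_fin_fun]
    have hne : LinearMap.charpoly (Matrix.toLin' (x : Matrix (Fin n) (Fin n) F)) ≠ 0 :=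
      (LinearMap.charpoly_monic _).ne_zero
    have hlin : ∀ g : F[X], g ∣ LinearMap.charpoly (Matrix.toLin' (x : Matrix (Fin n) (Fin n) F)) →
        g.natDegree ≠ 1 := by
      intro g hg h1
      have hg0 : g ≠ 0 := by
        rintro rfl
        simp at h1
      have hd1 : g.degree = 1 := by
        rw [Polynomial.degree_eq_natDegree hg0, h1]; rfl
      obtain ⟨c, hc⟩ := Polynomial.exists_root_of_degree_eq_one hd1
      exact hroot c (hc.dvd hg)
    refine exists_commuting hp _ (fun f hf hfm => ?_)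
    have hfc := hfm.trans (LinearMap.minpoly_dvd_charpoly _)
    refine h f hf (hlin f hfc) ?_ (hdeg ▸ Polynomial.natDegree_le_of_dvd hfc hne)
    obtain ⟨g, hg⟩ := hfc
    intro h2
    have hg0 : g ≠ 0 := by
      rintro rfl
      rw [mul_zero] at hg
      exact hne hg
    rw [hg, Polynomial.natDegree_mul hf.ne_zero hg0] at hdeg
    exact hlin g ⟨f, by rw [hg, mul_comm]⟩ (by omega)
  by_cases hall : ∀ x : Matrix.SpecialLinearGroup (Fin n) F,
      ∃ v : Fin n → F, v ≠ 0 ∧ ∃ c : F, Matrix.toLin' (x : Matrix (Fin n) (Fin n) F) v = c • v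
  · refine TwoCov.quot (Subgroup.center (Matrix.SpecialLinearGroup (Fin n) F)) H H hH hH hHc hHc ?_
    intro x
    obtain ⟨P, hP⟩ := hev x (hall x)
    exact ⟨P, Or.inl hP⟩
  · push Not at hall
    obtain ⟨x0, hx0⟩ := hall
    obtain ⟨ψ0, _⟩ := hnev x0 (by
      rintro ⟨v, hv, c, hc⟩
      exact hx0 v hv c hc)
    let φ : AdjoinRoot p →ₐ[F] Matrix (Fin n) (Fin n) F :=
      (Matrix.toLinAlgEquiv' (R := F) (n := Fin n)).symm.toAlgHom.comp ψ0
    refine TwoCov.quot (Subgroup.center (Matrix.SpecialLinearGroup (Fin n) F)) H (cent φ) hH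
      (cent_ne_top φ (by omega)) hHc (center_le_cent φ) ?_
    intro x
    by_cases hx : ∃ v : Fin n → F, v ≠ 0 ∧ ∃ c : F, Matrix.toLin' (x : Matrix (Fin n) (Fin n) F) v = c • v
    · obtain ⟨P, hP⟩ := hev x hx
      exact ⟨P, Or.inl hP⟩
    · obtain ⟨ψ, hψ⟩ := hnev x hx
      obtain ⟨P, hP⟩ := exists_conj_cent φ x ψ hψ
      exact ⟨P, Or.inr hP⟩

/-- Irreducible polynomials of every degree. -/
theorem exists_irred (r : ℕ) (hr : r ≠ 0) : ∃ p : F[X], Irreducible p ∧ p.natDegree = r := by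
  obtain ⟨q, hq⟩ := CharP.exists F
  have hqp : Fact q.Prime := ⟨CharP.char_is_prime F q⟩
  have : NeZero r := ⟨hr⟩
  obtain ⟨α, hα⟩ := Field.exists_primitive_element F (FiniteField.Extension F q r)
  have hint : IsIntegral F α := Algebra.IsIntegral.isIntegral α
  refine ⟨minpoly F α, minpoly.irreducible hint, ?_⟩
  have h1 := (Field.primitive_element_iff_minpoly_natDegree_eq F α).mp hα
  rw [h1, FiniteField.finrank_extension]

theorem psl2 : ∃ H K : Subgroup (Matrix.ProjectiveSpecialLinearGroup (Fin 2) F), H ≠ ⊤ ∧ K ≠ ⊤ ∧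
      ∀ g : (Matrix.ProjectiveSpecialLinearGroup (Fin 2) F),
        ∃ x : (Matrix.ProjectiveSpecialLinearGroup (Fin 2) F), x * g * x⁻¹ ∈ H ∨ x * g * x⁻¹ ∈ K := by
  obtain ⟨p, hp, hd⟩ := exists_irred (F := F) 2 two_ne_zero
  refine main le_rfl hp hd.ge (fun f hf h1 h2 h3 => ?_)
  have h4 : 0 < f.natDegree := hf.natDegree_pos
  have h5 : f.natDegree = 2 := by omega
  rw [hd, h5]

theorem psl3 : ∃ H K : Subgroup (Matrix.ProjectiveSpecialLinearGroup (Fin 3) F), H ≠ ⊤ ∧ K ≠ ⊤ ∧
      ∀ g : (Matrix.ProjectiveSpecialLinearGroup (Fin 3) F),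
        ∃ x : (Matrix.ProjectiveSpecialLinearGroup (Fin 3) F), x * g * x⁻¹ ∈ H ∨ x * g * x⁻¹ ∈ K := by
  obtain ⟨p, hp, hd⟩ := exists_irred (F := F) 3 three_ne_zero
  refine main (by norm_num) hp (by omega) (fun f hf h1 h2 h3 => ?_)
  have h4 : 0 < f.natDegree := hf.natDegree_pos
  have h5 : f.natDegree = 3 := by omega
  rw [hd, h5]

theorem psl4 : ∃ H K : Subgroup (Matrix.ProjectiveSpecialLinearGroup (Fin 4) F), H ≠ ⊤ ∧ K ≠ ⊤ ∧
      ∀ g : (Matrix.ProjectiveSpecialLinearGroup (Fin 4) F),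
        ∃ x : (Matrix.ProjectiveSpecialLinearGroup (Fin 4) F), x * g * x⁻¹ ∈ H ∨ x * g * x⁻¹ ∈ K := by
  obtain ⟨p, hp, hd⟩ := exists_irred (F := F) 2 two_ne_zero
  refine main (by norm_num) hp hd.ge (fun f hf h1 h2 h3 => ?_)
  have h4 : 0 < f.natDegree := hf.natDegree_pos
  have h5 : f.natDegree = 2 ∨ f.natDegree = 4 := by omega
  rw [hd]
  rcases h5 with h | h <;> rw [h] <;> norm_num

end Cfsg.Agent.H156.PSLCov
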