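import Mathlib
import Cfsg.Prelude.Def_Classical
import Cfsg.Agent.ClassicalGeometry.SympBasic
import Cfsg.Agent.ClassicalGeometry.SympInvolutions
import Cfsg.Agent.H156.Cov

set_option autoImplicit false

/-!
# `Sp_{2m}(q)`, `q` even, is the union of the conjugates of `O⁺` and `O⁻` (Dye's theorem) (helper156)
-/

open Cfsg
open scoped Matrix

namespace Cfsg.Agent.H156.SpEven

open Cfsg.Agent.ClassicalGeometry.SympBasic

variable {F : Type*} [Field F] {m : ℕ}

/-- The hyperbolic quadratic form. -/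
def Q0 (v : Fin m ⊕ Fin m → F) : F := ∑ i : Fin m, v (.inl i) * v (.inr i)

/-- The form `Q0 + B(·, a)²`. -/
def Qa (a v : Fin m ⊕ Fin m → F) : F := Q0 v + sympForm m F v a ^ 2

theorem Q0_add [CharP F 2] (u v : Fin m ⊕ Fin m → F) :
    Q0 (u + v) = Q0 u + Q0 v + sympForm m F u v := by
  rw [sympForm_eq_sum, Q0, Q0, Q0, ← Finset.sum_add_distrib, ← Finset.sum_add_distrib]
  refine Finset.sum_congr rfl fun i _ => ?_
  rw [CharTwo.sub_eq_add]
  simp only [Pi.add_apply]
  ring

theorem Q0_smul (c : F) (v : Fin m ⊕ Fin m → F) : Q0 (c • v) = c ^ 2 * Q0 v := by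
  rw [Q0, Q0, Finset.mul_sum]
  refine Finset.sum_congr rfl fun i _ => ?_
  simp only [Pi.smul_apply, smul_eq_mul]
  ring

theorem Qa_add [CharP F 2] (a u v : Fin m ⊕ Fin m → F) :
    Qa a (u + v) = Qa a u + Qa a v + sympForm m F u v := by
  rw [Qa, Qa, Qa, Q0_add, sympForm_add_left, CharTwo.add_sq]
  ring

theorem Qa_smul (a : Fin m ⊕ Fin m → F) (c : F) (v : Fin m ⊕ Fin m → F) :
    Qa a (c • v) = c ^ 2 * Qa a v := by
  rw [Qa, Qa, Q0_smul, sympForm_smul_left]
  ring

/-- The stabiliser of `Qa a` in the symplectic group. -/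
def st (a : Fin m ⊕ Fin m → F) : Subgroup (Matrix.symplecticGroup (Fin m) F) where
  carrier := {A | ∀ v, Qa a ((A : Matrix (Fin m ⊕ Fin m) (Fin m ⊕ Fin m) F) *ᵥ v) = Qa a v}
  mul_mem' {A B} hA hB := by
    intro v
    rw [coe_mul_mulVec, hA, hB]
  one_mem' := by
    intro v
    rw [OneMemClass.coe_one, Matrix.one_mulVec]
  inv_mem' {A} hA := by
    intro v
    have h := hA (((A⁻¹ : Matrix.symplecticGroup (Fin m) F) :
      Matrix (Fin m ⊕ Fin m) (Fin m ⊕ Fin m) F) *ᵥ v)
    rw [← coe_mul_mulVec, mul_inv_cancel, OneMemClass.coe_one, Matrix.one_mulVec] at h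
    exact h.symm

theorem mem_st {a : Fin m ⊕ Fin m → F} {A : Matrix.symplecticGroup (Fin m) F} :
    A ∈ st a ↔ ∀ v, Qa a ((A : Matrix (Fin m ⊕ Fin m) (Fin m ⊕ Fin m) F) *ᵥ v) = Qa a v := Iff.rfl

/-- A form `Qa a` composed with a transvection. -/
theorem Qa_transv [CharP F 2] (a c v : Fin m ⊕ Fin m → F) (s : F) (hs : s ^ 2 * Qa a c + s + 1 = 0) :
    Qa a ((transv c s : Matrix (Fin m ⊕ Fin m) (Fin m ⊕ Fin m) F) *ᵥ v) = Qa (a + c) v := by
  rw [coe_transv, sympTransvection_mulVec, Qa_add, Qa_smul, sympForm_smul_right, Qa, Qa, Qa,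
    sympForm_add_right, CharTwo.add_sq]
  rw [Qa] at hs
  have h2 : (2 : F) = 0 := CharTwo.two_eq_zero
  linear_combination (sympForm m F v c) ^ 2 * hs - sympForm m F v c ^ 2 * h2

/-- Elements of the stabiliser of `Qa (a + c)` are conjugate into the stabiliser of `Qa a`. -/
theorem conj_st [CharP F 2] (a c : Fin m ⊕ Fin m → F) (s : F) (hs : s ^ 2 * Qa a c + s + 1 = 0)
    (A : Matrix.symplecticGroup (Fin m) F) (hA : A ∈ st (a + c)) :
    transv c s * A * (transv c s)⁻¹ ∈ st a := by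
  intro v
  rw [coe_mul_mulVec, coe_mul_mulVec, Qa_transv a c _ s hs, hA, ← Qa_transv a c _ s hs,
    ← coe_mul_mulVec, mul_inv_cancel, OneMemClass.coe_one, Matrix.one_mulVec]

/-- Solving `s² x + s + 1 = 0` when `x = d² + d`. -/
theorem exists_s [CharP F 2] (x : F) (hx : ∃ d : F, d ^ 2 + d = x) :
    ∃ s : F, s ^ 2 * x + s + 1 = 0 := by
  obtain ⟨d, hd⟩ := hx
  have h2 : (2 : F) = 0 := CharTwo.two_eq_zero
  by_cases h0 : x = 0
  · exact ⟨1, by rw [h0]; linear_combination h2⟩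
  · refine ⟨d / x, ?_⟩
    field_simp
    linear_combination hd + x * h2

/-- **Dye**: every symplectic transformation preserves a quadratic form polarising to the
symplectic form. -/
theorem exists_mem_st [Finite F] [CharP F 2] (A : Matrix.symplecticGroup (Fin m) F) :
    ∃ a, A ∈ st a := by
  classical
  obtain ⟨M, hM⟩ : ∃ M : Matrix (Fin m ⊕ Fin m) (Fin m ⊕ Fin m) F, M = A.1 := ⟨_, rfl⟩
  obtain ⟨N, hN⟩ : ∃ N : Matrix (Fin m ⊕ Fin m) (Fin m ⊕ Fin m) F, N = (A⁻¹).1 := ⟨_, rfl⟩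
  have hB : ∀ u v, sympForm m F (M *ᵥ u) (M *ᵥ v) = sympForm m F u v := by
    rw [hM]; exact sympForm_mulVec A.2
  have hMN : ∀ v, M *ᵥ (N *ᵥ v) = v := fun v => by
    rw [hM, hN]
    have h := coe_mul_mulVec A A⁻¹ v
    rw [mul_inv_cancel, OneMemClass.coe_one, Matrix.one_mulVec] at h
    exact h.symm
  -- the square root of `Q0 (A v) + Q0 v`
  let r : F ≃+* F := (frobeniusEquiv F 2).symm
  have hr : ∀ x : F, r x ^ 2 = x := fun x => frobeniusEquiv_symm_pow_p F 2 x
  have hinj : ∀ x y : F, x ^ 2 = y ^ 2 → x = y := fun x y h => by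
    have : frobenius F 2 x = frobenius F 2 y := h
    exact frobenius_inj F 2 this
  let μ : (Fin m ⊕ Fin m → F) →ₗ[F] F :=
    { toFun := fun v => r (Q0 (M *ᵥ v) + Q0 v)
      map_add' := by
        intro u v
        apply hinj
        rw [CharTwo.add_sq, hr, hr, hr, Matrix.mulVec_add, Q0_add, Q0_add, hB]
        have h2 : (2 : F) = 0 := CharTwo.two_eq_zero
        linear_combination sympForm m F u v * h2
      map_smul' := by
        intro c v
        apply hinj
        rw [RingHom.id_apply, smul_eq_mul, mul_pow, hr, hr, Matrix.mulVec_smul, Q0_smul, Q0_smul]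
        ring }
  have hμ : ∀ v, μ v ^ 2 = Q0 (M *ᵥ v) + Q0 v := fun v => hr _
  -- every functional is given by a vector
  have hdual : ∀ f : (Fin m ⊕ Fin m → F) →ₗ[F] F, ∃ w, ∀ v, f v = sympForm m F v w := by
    intro f
    obtain ⟨w, hw⟩ := (LinearMap.BilinForm.toDual (sympBilin m F)
      sympBilin_nondegenerate).surjective f
    refine ⟨-w, fun v => ?_⟩
    rw [← hw, sympForm_neg_right, sympForm_swap, neg_neg]
    rfl
  obtain ⟨b, hb⟩ := hdual μ
  -- `b` lies in the range of `A⁻¹ + 1`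
  have hb' : b ∈ LinearMap.range (Matrix.mulVecLin (N - 1)) := by
    by_contra hcon
    obtain ⟨f, hf1, hf2⟩ := Submodule.exists_le_ker_of_notMem hcon
    obtain ⟨w, hw⟩ := hdual f
    have h1 : ∀ v, sympForm m F (N *ᵥ v - v) w = 0 := by
      intro v
      rw [← hw]
      apply hf2
      exact ⟨v, by rw [Matrix.mulVecLin_apply, Matrix.sub_mulVec, Matrix.one_mulVec]⟩
    have h2 : M *ᵥ w = w := by
      apply eq_of_forall_sympForm_left
      intro v
      have h3 := h1 v
      rw [sympForm_sub_left, sub_eq_zero] at h3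
      rw [← h3, ← hB (N *ᵥ v) w, hMN]
    apply hf1
    rw [hw, sympForm_swap, ← hb w]
    have h4 := hμ w
    rw [h2, CharTwo.add_self_eq_zero] at h4
    rw [pow_eq_zero_iff two_ne_zero] at h4
    rw [h4, neg_zero]
  obtain ⟨a, ha⟩ := hb'
  refine ⟨a, ?_⟩
  intro v
  rw [Matrix.mulVecLin_apply, Matrix.sub_mulVec, Matrix.one_mulVec] at ha
  rw [← hM, Qa, Qa]
  have h1 : sympForm m F v b = sympForm m F (M *ᵥ v) a - sympForm m F v a := by
    rw [← ha, sympForm_sub_right, ← hB v (N *ᵥ a), hMN]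
  have h2 := hμ v
  rw [hb, h1] at h2
  have h2' : (2 : F) = 0 := CharTwo.two_eq_zero
  linear_combination h2 + (Q0 (M *ᵥ v) - sympForm m F v a ^ 2 +
    sympForm m F (M *ᵥ v) a * sympForm m F v a) * h2'

theorem psp_even [Finite F] [CharP F 2] (hm : 2 ≤ m) :
    ∃ H K : Subgroup (Cfsg.PSp m F), H ≠ ⊤ ∧ K ≠ ⊤ ∧
      ∀ g : Cfsg.PSp m F, ∃ x : Cfsg.PSp m F, x * g * x⁻¹ ∈ H ∨ x * g * x⁻¹ ∈ K := by
  classical
  obtain ⟨n, hn⟩ := exists_not_P F
  let i0 : Fin m := ⟨0, by omega⟩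
  let i1 : Fin m := ⟨1, by omega⟩
  have hi : i0 ≠ i1 := by
    intro h
    have := congrArg Fin.val h
    simp [i0, i1] at this
  let a1 : Fin m ⊕ Fin m → F := Pi.single (.inl i0) 1 + Pi.single (.inr i0) n
  let c1 : Fin m ⊕ Fin m → F := Pi.single (.inl i1) 1
  have hc1 : c1 ≠ 0 := by
    intro h
    have := congrFun h (.inl i1)
    simp [c1] at this
  have hQa1 : Q0 a1 = n := by
    rw [Q0, Finset.sum_eq_single i0]
    · simp [a1]
    · intro j _ hj
      simp [a1, hj]
    · simp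
  have hQc1 : Q0 c1 = 0 := by
    rw [Q0]
    refine Finset.sum_eq_zero fun j _ => ?_
    simp [c1]
  have hBc1 : sympForm m F c1 a1 = 0 := by
    rw [sympForm_single_inl_left]
    simp [a1, hi.symm]
  clear_value a1 c1
  -- properness
  have hproper : ∀ a : Fin m ⊕ Fin m → F, Qa a c1 = 0 → st a ≠ ⊤ := by
    intro a ha h
    obtain ⟨v, hv⟩ : ∃ v, sympForm m F v c1 ≠ 0 := by
      by_contra hcon
      push Not at hcon
      exact hc1 (eq_zero_of_forall_sympForm_left hcon)
    have hmem : transv c1 1 ∈ st a := by rw [h]; trivial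
    have h1 := hmem v
    have hs : (1 : F) ^ 2 * Qa a c1 + 1 + 1 = 0 := by
      rw [ha, mul_zero, zero_add, CharTwo.add_self_eq_zero]
    rw [Qa_transv a c1 v 1 hs, Qa, Qa, sympForm_add_right, CharTwo.add_sq] at h1
    apply hv
    have h2 : sympForm m F v c1 ^ 2 = 0 := by linear_combination h1
    exact pow_eq_zero_iff two_ne_zero |>.mp h2
  have hcent : ∀ a : Fin m ⊕ Fin m → F, Subgroup.center (Matrix.symplecticGroup (Fin m) F) ≤ st a := by
    intro a z hz v
    rcases Cfsg.Agent.ClassicalGeometry.SympInvolutions.center_eq hz with h | h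
    · rw [h, Matrix.one_mulVec]
    · have h1 : (-1 : Matrix (Fin m ⊕ Fin m) (Fin m ⊕ Fin m) F) = 1 := by
        rw [← sub_eq_zero]
        have h2 : (2 : F) = 0 := CharTwo.two_eq_zero
        ext i j
        rw [Matrix.sub_apply, Matrix.neg_apply, Matrix.zero_apply]
        linear_combination (- (1 : Matrix (Fin m ⊕ Fin m) (Fin m ⊕ Fin m) F) i j) * h2
      rw [h, h1, Matrix.one_mulVec]
  refine TwoCov.quot (Subgroup.center (Matrix.symplecticGroup (Fin m) F)) (st 0) (st a1)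
    (hproper 0 ?_) (hproper a1 ?_) (hcent 0) (hcent a1) ?_
  · rw [Qa, hQc1, sympForm_zero_right]; ring
  · rw [Qa, hQc1, hBc1]; ring
  · intro A
    obtain ⟨b, hb⟩ := exists_mem_st A
    by_cases hP : ∃ d : F, d ^ 2 + d = Q0 b
    · obtain ⟨s, hs⟩ := exists_s (Qa 0 b) (by
        rw [Qa, sympForm_zero_right]
        obtain ⟨d, hd⟩ := hP
        exact ⟨d, by rw [hd]; ring⟩)
      refine ⟨transv b s, Or.inl (conj_st 0 b s hs A ?_)⟩
      rwa [zero_add]
    · obtain ⟨d, hd⟩ := add_mem_P hn hP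
      obtain ⟨s, hs⟩ := exists_s (Qa a1 (a1 + b)) (by
        refine ⟨d + sympForm m F a1 b, ?_⟩
        rw [Qa, Q0_add, sympForm_add_left, sympForm_self, hQa1, CharTwo.add_sq, sympForm_swap b a1,
          zero_add]
        linear_combination hd)
      refine ⟨transv (a1 + b) s, Or.inr (conj_st a1 (a1 + b) s hs A ?_)⟩
      have h2 : a1 + (a1 + b) = b := by
        rw [← add_assoc]
        have : a1 + a1 = 0 := by
          ext i
          exact CharTwo.add_self_eq_zero _
        rw [this, zero_add]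
      rwa [h2]

end Cfsg.Agent.H156.SpEven
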