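import Mathlib
import Cfsg.Prelude.Def_Classical
import Cfsg.Agent.ClassicalGeometry.SympBasic
import Cfsg.Agent.ClassicalGeometry.SympInvolutions
import Cfsg.Agent.ClassicalGeometry.TwoFamilies
import Cfsg.Agent.H156.Cov
import Cfsg.Agent.H156.Art
import Cfsg.Agent.H156.Shift
import Cfsg.Agent.H156.PSLCov

set_option autoImplicit false

/-!
# Elements of `Sp₆(3^a)` (helper156)
-/

open Cfsg

namespace Cfsg.Agent.H156.SpThree

open Polynomial Module Matrix Cfsg.Agent.ClassicalGeometry.SympBasic Cfsg.Agent.H156.Art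
  Cfsg.Agent.H156.Shift

variable {F : Type*} [Field F]

/-- six by six matrices -/
abbrev M6 (F : Type*) := Matrix (Fin 3 ⊕ Fin 3) (Fin 3 ⊕ Fin 3) F
/-- the space -/
abbrev V6 (F : Type*) := Fin 3 ⊕ Fin 3 → F

/-- self-adjoint -/
def SA (s : M6 F) : Prop := ∀ u v, sympForm 3 F (s *ᵥ u) v = sympForm 3 F u (s *ᵥ v)

theorem algebraMap_mulVec (c : F) (u : V6 F) : (algebraMap F (M6 F) c) *ᵥ u = c • u := by
  rw [Matrix.algebraMap_eq_diagonal]
  ext k
  rw [Matrix.mulVec_diagonal]
  rfl

theorem SA.add {s t : M6 F} (hs : SA s) (ht : SA t) : SA (s + t) := by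
  intro u v
  rw [Matrix.add_mulVec, Matrix.add_mulVec, sympForm_add_left, sympForm_add_right, hs, ht]

theorem SA.mul {s t : M6 F} (hs : SA s) (ht : SA t) (h : Commute s t) : SA (s * t) := by
  intro u v
  rw [← mulVec_mulVec, hs, ht, mulVec_mulVec, ← h.eq]

theorem SA.algMap (c : F) : SA (algebraMap F (M6 F) c) := by
  intro u v
  rw [algebraMap_mulVec, algebraMap_mulVec, sympForm_smul_left, sympForm_smul_right]

theorem SA.pow {s : M6 F} (hs : SA s) (k : ℕ) : SA (s ^ k) := by
  induction k with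
  | zero => intro u v; simp
  | succ k ih => rw [pow_succ]; exact ih.mul hs (Commute.pow_self s k)

theorem SA.neg {s : M6 F} (hs : SA s) : SA (-s) := by
  intro u v
  rw [Matrix.neg_mulVec, Matrix.neg_mulVec, sympForm_neg_left, sympForm_neg_right, hs]

theorem SA.sub {s t : M6 F} (hs : SA s) (ht : SA t) : SA (s - t) := by
  rw [sub_eq_add_neg]; exact hs.add ht.neg

theorem SA.aeval {s : M6 F} (hs : SA s) (P : F[X]) : SA (Polynomial.aeval s P) := by
  induction P using Polynomial.induction_on' with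
  | add A B hA hB => rw [map_add]; exact hA.add hB
  | monomial k a =>
    rw [aeval_monomial]
    exact (SA.algMap a).mul (hs.pow k) (Algebra.commutes a (s ^ k))

theorem commute_aeval {g s : M6 F} (h : Commute g s) (P : F[X]) : Commute g (Polynomial.aeval s P) := by
  induction P using Polynomial.induction_on' with
  | add A B hA hB => rw [map_add]; exact hA.add_right hB
  | monomial k a =>
    rw [aeval_monomial]
    exact Commute.mul_right (Algebra.commutes a g).symm (h.pow_right k)

/-- the orthogonal complement -/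
def spPerp (W : Submodule F (V6 F)) : Submodule F (V6 F) where
  carrier := {u | ∀ w ∈ W, sympForm 3 F w u = 0}
  add_mem' {a b} ha hb w hw := by rw [sympForm_add_right, ha w hw, hb w hw, add_zero]
  zero_mem' w _ := sympForm_zero_right w
  smul_mem' c a ha w hw := by rw [sympForm_smul_right, ha w hw, mul_zero]

theorem mem_spPerp {W : Submodule F (V6 F)} {u : V6 F} :
    u ∈ spPerp W ↔ ∀ w ∈ W, sympForm 3 F w u = 0 := Iff.rfl

theorem finrank_V6 : finrank F (V6 F) = 6 := by simp

theorem finrank_spPerp (W : Submodule F (V6 F)) : finrank F W + finrank F (spPerp W) = 6 := by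
  have h1 := LinearMap.BilinForm.finrank_orthogonal (B := sympBilin 3 F) sympBilin_nondegenerate W
  have h2 : spPerp W = LinearMap.BilinForm.orthogonal (sympBilin 3 F) W := by
    ext u
    rw [LinearMap.BilinForm.mem_orthogonal_iff]
    rfl
  have h3 : finrank F (spPerp W) = finrank F (V6 F) - finrank F W := by
    rw [h2]; exact h1
  have h4 : finrank F W ≤ finrank F (V6 F) := Submodule.finrank_le W
  rw [finrank_V6] at h3 h4
  omega

/-- a totally singular subspace has dimension at most three -/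
theorem ts_le (W : Submodule F (V6 F)) (h : ∀ u ∈ W, ∀ v ∈ W, sympForm 3 F u v = 0) :
    finrank F W ≤ 3 := by
  have h1 := finrank_spPerp W
  have h2 : W ≤ spPerp W := fun u hu v hv => h v hv u hu
  have h3 := Submodule.finrank_mono h2
  omega

/-- there is an invariant hyperbolic plane -/
def Plane (g : M6 F) : Prop := ∃ u v : V6 F, sympForm 3 F u v = 1 ∧
  ∀ w ∈ Submodule.span F {u, v}, g *ᵥ w ∈ Submodule.span F {u, v}

theorem plane_of_nd {g : M6 F} {W : Submodule F (V6 F)} (h2 : finrank F W = 2)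
    (hnd : ∀ u ∈ W, (∀ v ∈ W, sympForm 3 F u v = 0) → u = 0) (hg : ∀ w ∈ W, g *ᵥ w ∈ W) : Plane g := by
  have hne : W ≠ ⊥ := by
    rintro rfl
    rw [finrank_bot] at h2
    omega
  obtain ⟨u, hu, hu0⟩ := Submodule.exists_mem_ne_zero_of_ne_bot hne
  obtain ⟨v, hv, huv⟩ : ∃ v ∈ W, sympForm 3 F u v ≠ 0 := by
    by_contra hcon
    push Not at hcon
    exact hu0 (hnd u hu hcon)
  set b := sympForm 3 F u v with hb
  have h1 : sympForm 3 F u (b⁻¹ • v) = 1 := by
    rw [sympForm_smul_right, ← hb, inv_mul_cancel₀ huv]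
  have hbv : b⁻¹ • v ∈ W := W.smul_mem _ hv
  have hli : LinearIndependent F ![u, b⁻¹ • v] := by
    rw [LinearIndependent.pair_iff' hu0]
    intro a ha
    rw [← ha, sympForm_smul_right, sympForm_self, mul_zero] at h1
    exact zero_ne_one h1
  have hspan : Submodule.span F {u, b⁻¹ • v} = W := by
    apply Submodule.eq_of_le_of_finrank_eq
    · rw [Submodule.span_le]
      rintro x (rfl | rfl)
      · exact hu
      · exact hbv
    · have h3 := finrank_span_eq_card hli
      rw [Matrix.range_cons_cons_empty] at h3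
      rw [h2]
      simpa using h3
  refine ⟨u, b⁻¹ • v, h1, ?_⟩
  rw [hspan]
  exact hg

/-- The Fitting decomposition of a self-adjoint matrix. -/
theorem fitting {g N : M6 F} (hN : SA N) (hgN : g * N = N * g) :
    Plane g ∨ N ^ 6 = 0 ∨ ∀ u, N *ᵥ u = 0 → u = 0 := by
  set A : M6 F := N ^ 6 with hA
  have hSA : SA A := hN.pow 6
  have hgA : g * A = A * g := (Commute.pow_right (show Commute g N from hgN) 6).eq
  set K := LinearMap.ker (Matrix.mulVecLin A) with hK
  set R := LinearMap.range (Matrix.mulVecLin A) with hR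
  have hmK : ∀ u, u ∈ K ↔ A *ᵥ u = 0 := fun u => by rw [hK, LinearMap.mem_ker]; rfl
  have hKR : ∀ k ∈ K, ∀ r ∈ R, sympForm 3 F r k = 0 := by
    rintro k hk _ ⟨y, rfl⟩
    rw [Matrix.mulVecLin_apply, hSA, (hmK k).1 hk, sympForm_zero_right]
  have hinf : K ⊓ R = ⊥ := by
    rw [Submodule.eq_bot_iff]
    rintro z ⟨hz, y, rfl⟩
    have e : ∀ k : ℕ, Matrix.mulVecLin (N ^ k) = (Matrix.mulVecLin N) ^ k := by
      intro k
      induction k with
      | zero => rw [pow_zero, pow_zero, Matrix.mulVecLin_one]; rfl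
      | succ k ih => rw [pow_succ, pow_succ, Matrix.mulVecLin_mul, ih]; rfl
    have h1 : y ∈ LinearMap.ker ((Matrix.mulVecLin N) ^ (6 + 6)) := by
      rw [LinearMap.mem_ker, ← e, pow_add, Matrix.mulVecLin_mul]
      exact hz
    have h2 : LinearMap.ker ((Matrix.mulVecLin N) ^ (6 + 6)) =
        LinearMap.ker ((Matrix.mulVecLin N) ^ finrank F (V6 F)) :=
      Module.End.ker_pow_eq_ker_pow_finrank_of_le (by simp)
    have h4 : finrank F (V6 F) = 6 := by simp
    rw [h2, h4, ← e] at h1
    exact h1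
  have hrn : finrank F R + finrank F K = 6 := by
    have := LinearMap.finrank_range_add_finrank_ker (Matrix.mulVecLin A)
    rw [finrank_V6] at this
    exact this
  have hsup : K ⊔ R = ⊤ := by
    apply Submodule.eq_top_of_finrank_eq
    have h1 := Submodule.finrank_sup_add_finrank_inf_eq K R
    rw [hinf, finrank_bot] at h1
    have h4 : finrank F (V6 F) = 6 := by simp
    rw [h4]
    omega
  have hdec : ∀ w : V6 F, ∃ a ∈ K, ∃ b ∈ R, a + b = w := by
    intro w
    have hw : w ∈ K ⊔ R := by rw [hsup]; trivial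
    exact Submodule.mem_sup.1 hw
  have hKnd : ∀ u ∈ K, (∀ v ∈ K, sympForm 3 F u v = 0) → u = 0 := by
    intro u hu hv
    apply eq_zero_of_forall_sympForm_right
    intro w
    obtain ⟨a, ha, b, hb, rfl⟩ := hdec w
    rw [sympForm_add_right, hv a ha, sympForm_swap u b, hKR u hu b hb, neg_zero, add_zero]
  have hRnd : ∀ u ∈ R, (∀ v ∈ R, sympForm 3 F u v = 0) → u = 0 := by
    intro u hu hv
    apply eq_zero_of_forall_sympForm_right
    intro w
    obtain ⟨a, ha, b, hb, rfl⟩ := hdec w
    rw [sympForm_add_right, hv b hb, hKR a ha u hu, add_zero]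
  have hKI : ∀ w ∈ K, g *ᵥ w ∈ K := by
    intro w hw
    rw [hmK] at hw ⊢
    rw [mulVec_mulVec, ← hgA, ← mulVec_mulVec, hw, mulVec_zero]
  have hRI : ∀ w ∈ R, g *ᵥ w ∈ R := by
    rintro _ ⟨y, rfl⟩
    refine ⟨g *ᵥ y, ?_⟩
    rw [Matrix.mulVecLin_apply, Matrix.mulVecLin_apply, mulVec_mulVec, mulVec_mulVec, hgA]
  -- the dimension is even
  have heven : ∃ m : ℕ, finrank F K = m + m := by
    let B : LinearMap.BilinForm F K := (sympBilin 3 F).domRestrict₁₂ K K
    have hB : ∀ x y : K, B x y = sympForm 3 F x y := fun x y => rfl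
    obtain ⟨m, hm⟩ := Cfsg.Agent.ClassicalGeometry.TwoFamilies.exists_finrank_eq_ker_add B
      (fun x => by rw [hB, sympForm_self])
    have hker : LinearMap.ker B = ⊥ := by
      rw [Submodule.eq_bot_iff]
      intro x hx
      have h1 : B x = 0 := hx
      have h2 := hKnd x x.2 (fun v hv => by
        have := congrArg (fun f => f ⟨v, hv⟩) h1
        exact this)
      exact Subtype.ext h2
    rw [hker, finrank_bot, zero_add] at hm
    exact ⟨m, hm⟩
  obtain ⟨m, hm⟩ := heven
  have hcases : finrank F K = 0 ∨ finrank F K = 2 ∨ finrank F K = 4 ∨ finrank F K = 6 := by omega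
  rcases hcases with h | h | h | h
  · right; right
    intro u hu
    have h1 : u ∈ K := by
      rw [hmK, hA, pow_succ, ← mulVec_mulVec, hu, mulVec_zero]
    rw [Submodule.finrank_eq_zero.1 h, Submodule.mem_bot] at h1
    exact h1
  · left
    exact plane_of_nd h hKnd hKI
  · left
    have hR2 : finrank F R = 2 := by omega
    exact plane_of_nd hR2 hRnd hRI
  · right; left
    have hKtop : K = ⊤ := Submodule.eq_top_of_finrank_eq (by rw [h]; simp)
    apply Matrix.ext_of_mulVec_single
    intro i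
    have : (Pi.single i 1 : V6 F) ∈ K := by rw [hKtop]; trivial
    rw [(hmK _).1 this, zero_mulVec]

section Rep

variable {f : F[X]}

/-- the representation of `F[X]/(f)` attached to a root of `f` -/
noncomputable def rho {s : M6 F} (hs : Polynomial.aeval s f = 0) : AdjoinRoot f →ₐ[F] M6 F :=
  Ideal.Quotient.liftₐ (Ideal.span {f}) (Polynomial.aeval s) (by
    intro a ha
    obtain ⟨b, rfl⟩ := Ideal.mem_span_singleton.1 ha
    rw [map_mul, hs, zero_mul])

theorem rho_mk {s : M6 F} (hs : Polynomial.aeval s f = 0) (P : F[X]) :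
    rho hs (AdjoinRoot.mk f P) = Polynomial.aeval s P := rfl

theorem rho_SA {s : M6 F} (hs : Polynomial.aeval s f = 0) (hsa : SA s) (a : AdjoinRoot f) :
    SA (rho hs a) := by
  obtain ⟨P, rfl⟩ := AdjoinRoot.mk_surjective a
  rw [rho_mk]
  exact hsa.aeval P

/-- alternating values -/
theorem SA.alt [NeZero (2 : F)] {s : M6 F} (hs : SA s) (v : V6 F) : sympForm 3 F (s *ᵥ v) v = 0 := by
  have h1 := hs v v
  rw [sympForm_swap v] at h1
  have h2 : (2 : F) * sympForm 3 F (s *ᵥ v) v = 0 := by linear_combination h1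
  exact (mul_eq_zero.1 h2).resolve_left (NeZero.ne 2)

/-- The degree of an irreducible polynomial killing a self-adjoint matrix. -/
theorem deg_cases [NeZero (2 : F)] (hf : Irreducible f) {s : M6 F} (hs : Polynomial.aeval s f = 0)
    (hsa : SA s) : f.natDegree = 1 ∨ f.natDegree = 3 := by
  have hfact : Fact (Irreducible f) := ⟨hf⟩
  have hfin : FiniteDimensional F (AdjoinRoot f) := (AdjoinRoot.powerBasis hf.ne_zero).finite
  have hfr : finrank F (AdjoinRoot f) = f.natDegree := finrank_quotient_span_eq_natDegree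
  -- the orbit map
  let O : V6 F → (AdjoinRoot f →ₗ[F] V6 F) := fun v =>
    { toFun := fun b => rho hs b *ᵥ v
      map_add' := fun a b => by rw [map_add, Matrix.add_mulVec]
      map_smul' := fun a b => by rw [map_smul, Matrix.smul_mulVec]; rfl }
  have hO : ∀ v b, O v b = rho hs b *ᵥ v := fun v b => rfl
  have hOinj : ∀ v, v ≠ 0 → Function.Injective (O v) := by
    intro v hv
    rw [injective_iff_map_eq_zero]
    intro b hb
    by_contra h
    apply hv
    have h1 : rho hs b⁻¹ *ᵥ (rho hs b *ᵥ v) = v := by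
      rw [mulVec_mulVec, ← map_mul, inv_mul_cancel₀ h, map_one, one_mulVec]
    rw [hO] at hb
    rw [← h1, hb, mulVec_zero]
  have hOr : ∀ v, v ≠ 0 → finrank F (LinearMap.range (O v)) = f.natDegree := by
    intro v hv
    rw [LinearMap.finrank_range_of_inj (hOinj v hv), hfr]
  have hts : ∀ v, ∀ x ∈ LinearMap.range (O v), ∀ y ∈ LinearMap.range (O v), sympForm 3 F x y = 0 := by
    rintro v _ ⟨a, rfl⟩ _ ⟨b, rfl⟩
    rw [hO, hO, ← rho_SA hs hsa b, mulVec_mulVec, ← map_mul]
    exact (rho_SA hs hsa _).alt v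
  have hne : (fun _ => 1 : V6 F) ≠ 0 := fun h => one_ne_zero (congrFun h (Sum.inl 0))
  have hle : f.natDegree ≤ 3 := by
    rw [← hOr _ hne]
    exact ts_le _ (hts _)
  have hpos : f.natDegree ≠ 0 := hf.natDegree_pos.ne'
  by_contra hcon
  have hd : f.natDegree = 2 := by omega
  -- a second vector
  set U := LinearMap.range (O (fun _ => 1)) with hU
  have hUr : finrank F U = 2 := by rw [hOr _ hne, hd]
  have h1 := finrank_spPerp U
  obtain ⟨w, hw, hwU⟩ : ∃ w ∈ spPerp U, w ∉ U := by
    by_contra hcon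
    push Not at hcon
    have hle : spPerp U ≤ U := hcon
    have := Submodule.finrank_mono hle
    omega
  have hw' : ∀ x ∈ U, sympForm 3 F x w = 0 := fun x hx => hw x hx
  have hw0 : w ≠ 0 := by
    rintro rfl
    exact hwU U.zero_mem
  set U' := LinearMap.range (O w) with hU'
  have hU'r : finrank F U' = 2 := by rw [hOr _ hw0, hd]
  have hinf : U ⊓ U' = ⊥ := by
    rw [Submodule.eq_bot_iff]
    rintro _ ⟨⟨a, ha⟩, b, rfl⟩
    by_contra h
    have hb : b ≠ 0 := by
      rintro rfl
      exact h (map_zero _)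
    apply hwU
    refine ⟨b⁻¹ * a, ?_⟩
    rw [hO, map_mul, ← mulVec_mulVec, ← hO _ a, ha, hO, mulVec_mulVec, ← map_mul,
      inv_mul_cancel₀ hb, map_one, one_mulVec]
  have hUU' : ∀ x ∈ U, ∀ y ∈ U', sympForm 3 F x y = 0 := by
    rintro _ ⟨a, rfl⟩ _ ⟨b, rfl⟩
    rw [hO, hO, ← rho_SA hs hsa b, mulVec_mulVec, ← map_mul]
    exact hw' _ ⟨b * a, rfl⟩
  have hsum := Submodule.finrank_sup_add_finrank_inf_eq U U'
  rw [hinf, finrank_bot, hUr, hU'r] at hsum
  have := ts_le (U ⊔ U') (by
    intro x hx y hy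
    obtain ⟨x1, hx1, x2, hx2, rfl⟩ := Submodule.mem_sup.1 hx
    obtain ⟨y1, hy1, y2, hy2, rfl⟩ := Submodule.mem_sup.1 hy
    rw [sympForm_add_left, sympForm_add_right, sympForm_add_right, hts _ x1 hx1 y1 hy1,
      hUU' x1 hx1 y2 hy2, sympForm_swap x2 y1, hUU' y1 hy1 x2 hx2, hts _ x2 hx2 y2 hy2]
    ring)
  omega

end Rep

/-- **The trichotomy** for self-adjoint matrices commuting with `g`. -/
theorem trichotomy [Fintype F] [CharP F 3] {c : F} (hno : ∀ x : F, x ^ 3 - x ≠ c) {g s : M6 F}
    (hs : SA s) (hgs : g * s = s * g) :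
    Plane g ∨ (∃ t : M6 F, SA t ∧ t ^ 3 - t = algebraMap F _ c ∧ g * t = t * g) ∨
      ∃ l : F, (s - algebraMap F _ l) ^ 6 = 0 := by
  have h2 : NeZero (2 : F) := ⟨by
    intro h
    have h3 : (3 : F) = 0 := by exact_mod_cast CharP.cast_eq_zero F 3
    have : (1 : F) = 0 := by linear_combination h3 - h
    exact one_ne_zero this⟩
  have hm : minpoly F s ≠ 0 := minpoly.ne_zero (Algebra.IsIntegral.isIntegral _)
  obtain ⟨f, hf, r, hr⟩ := WfDvdMonoid.exists_irreducible_factor (minpoly.not_isUnit F s) hm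
  rcases fitting (g := g) (hs.aeval f) (commute_aeval (show Commute g s from hgs) f).eq with h | h | h
  · exact Or.inl h
  · right
    -- the semisimple part
    have hcard : 6 ≤ Fintype.card F ^ 6 :=
      (Nat.lt_pow_self (n := 6) Fintype.one_lt_card).le
    have h3 : Polynomial.aeval (Polynomial.aeval s (expand F (Fintype.card F ^ 6) X)) f = 0 := by
      rw [← aeval_comp, PSLCov.comp_pow_card, comp_X, map_pow]
      exact pow_eq_zero_of_le hcard h
    rcases deg_cases hf h3 (hs.aeval _) with hd | hd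
    · right
      obtain ⟨l, hl⟩ := Polynomial.exists_root_of_degree_eq_one (p := f) (by
        rw [Polynomial.degree_eq_natDegree hf.ne_zero, hd]; rfl)
      refine ⟨l, ?_⟩
      obtain ⟨e, he⟩ := Polynomial.dvd_iff_isRoot.2 hl
      have heu : IsUnit e := (hf.isUnit_or_isUnit he).resolve_left (Polynomial.not_isUnit_X_sub_C l)
      obtain ⟨e', he'⟩ := heu.exists_right_inv
      have h4 : X - C l = f * e' := by
        rw [he, mul_assoc, he', mul_one]
      have h5 : s - algebraMap F _ l = Polynomial.aeval s f * Polynomial.aeval s e' := by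
        rw [← map_mul, ← h4, map_sub, aeval_X, aeval_C]
      have hcomm : Commute (Polynomial.aeval s f) (Polynomial.aeval s e') := by
        rw [Commute, SemiconjBy, ← map_mul, ← map_mul, mul_comm]
      rw [h5, hcomm.mul_pow, h, zero_mul]
    · left
      obtain ⟨G, k, hG⟩ := PSLCov.exists_comp (irr_AS hno) (f ^ 6) (pow_ne_zero _ hf.ne_zero) (by
        intro f' hf' hdvd
        have h4 : f' ∣ f := hf'.prime.dvd_of_dvd_pow hdvd
        rw [Polynomial.natDegree_eq_of_degree_eq (Polynomial.degree_eq_degree_of_associated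
          (hf'.associated_of_dvd hf h4)), hd, natDegree_AS])
      refine ⟨Polynomial.aeval s G, hs.aeval G, ?_, (commute_aeval (show Commute g s from hgs) G).eq⟩
      have h1 : Polynomial.aeval s ((X ^ 3 - X - C c : F[X]).comp G) = 0 := by
        rw [hG, map_mul, map_pow, h, zero_mul]
      rw [aeval_comp] at h1
      simp only [map_sub, map_pow, aeval_X, aeval_C] at h1
      exact sub_eq_zero.1 h1
  · -- `f(s)` is not injective
    exfalso
    have h3 : Polynomial.aeval s r = 0 := by
      apply Matrix.ext_of_mulVec_single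
      intro i
      rw [zero_mulVec]
      apply h
      rw [mulVec_mulVec, ← map_mul, ← hr, minpoly.aeval, zero_mulVec]
    have h4 := minpoly.dvd F s h3
    have hr0 : r ≠ 0 := by
      rintro rfl
      rw [mul_zero] at hr
      exact hm hr
    have h5 := Polynomial.natDegree_le_of_dvd h4 hr0
    rw [hr, Polynomial.natDegree_mul hf.ne_zero hr0] at h5
    have := hf.natDegree_pos
    omega

/-- the adjoint -/
def sad (A : M6 F) : M6 F := -(Matrix.J (Fin 3) F * Aᵀ * Matrix.J (Fin 3) F)

theorem J_sq' : Matrix.J (Fin 3) F * Matrix.J (Fin 3) F = -1 := Matrix.J_squared (Fin 3) F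

theorem sympForm_sad (A : M6 F) (u v : V6 F) :
    sympForm 3 F (A *ᵥ u) v = sympForm 3 F u (sad A *ᵥ v) := by
  have h1 : Matrix.J (Fin 3) F * sad A = Aᵀ * Matrix.J (Fin 3) F := by
    rw [sad, mul_neg, ← mul_assoc, ← mul_assoc, J_sq', neg_mul, neg_mul, one_mul, neg_neg]
  rw [sympForm_def, sympForm_def, mulVec_mulVec, h1, ← mulVec_mulVec, Matrix.mulVec_transpose,
    dotProduct_comm (A *ᵥ u), Matrix.dotProduct_mulVec, dotProduct_comm]

theorem sad_sad (A : M6 F) : sad (sad A) = A := by
  apply Matrix.ext_of_mulVec_single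
  intro i
  apply eq_of_forall_sympForm_left
  intro w
  rw [← sympForm_sad, sympForm_swap, ← sympForm_sad, sympForm_swap, neg_neg]

theorem sad_mul (A C : M6 F) : sad (A * C) = sad C * sad A := by
  apply Matrix.ext_of_mulVec_single
  intro i
  apply eq_of_forall_sympForm_left
  intro w
  rw [← sympForm_sad, ← mulVec_mulVec, ← mulVec_mulVec, sympForm_sad, sympForm_sad]

theorem sad_add (A C : M6 F) : sad (A + C) = sad A + sad C := by
  rw [sad, sad, sad, Matrix.transpose_add, mul_add, add_mul, neg_add]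

theorem sad_one : sad (1 : M6 F) = 1 := by
  rw [sad, Matrix.transpose_one, mul_one, J_sq', neg_neg]

theorem trace_sad (A : M6 F) : (sad A).trace = A.trace := by
  rw [sad, Matrix.trace_neg, Matrix.trace_mul_comm, ← mul_assoc, J_sq', neg_mul, one_mul,
    Matrix.trace_neg, neg_neg, Matrix.trace_transpose]

theorem SA_add_sad (A : M6 F) : SA (A + sad A) := by
  intro u v
  rw [Matrix.add_mulVec, Matrix.add_mulVec, sympForm_add_left, sympForm_add_right, sympForm_sad,
    sympForm_sad (sad A), sad_sad, add_comm]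

/-- the inverse is the adjoint -/
theorem sad_coe (g : Matrix.symplecticGroup (Fin 3) F) :
    sad (g : M6 F) = ((g⁻¹ : Matrix.symplecticGroup (Fin 3) F) : M6 F) := by
  apply Matrix.ext_of_mulVec_single
  intro i
  apply eq_of_forall_sympForm_left
  intro w
  have h1 : (g : M6 F) *ᵥ (((g⁻¹ : Matrix.symplecticGroup (Fin 3) F) : M6 F) *ᵥ (Pi.single i 1 : V6 F)) =
      Pi.single i 1 := by
    rw [← coe_mul_mulVec, mul_inv_cancel]
    exact Matrix.one_mulVec _
  rw [← sympForm_sad]
  conv_lhs => rw [← h1]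
  rw [sympForm_mulVec g.2]

theorem coe_mul_inv (g : Matrix.symplecticGroup (Fin 3) F) :
    (g : M6 F) * ((g⁻¹ : Matrix.symplecticGroup (Fin 3) F) : M6 F) = 1 := by
  rw [← Submonoid.coe_mul, mul_inv_cancel]; rfl

theorem coe_inv_mul (g : Matrix.symplecticGroup (Fin 3) F) :
    ((g⁻¹ : Matrix.symplecticGroup (Fin 3) F) : M6 F) * (g : M6 F) = 1 := by
  rw [← Submonoid.coe_mul, inv_mul_cancel]; rfl

/-- **The alternative** -/
theorem exists_t [Fintype F] [CharP F 3] {c : F} (hno : ∀ x : F, x ^ 3 - x ≠ c)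
    (g : Matrix.symplecticGroup (Fin 3) F) :
    Plane (g : M6 F) ∨ ∃ t : M6 F, SA t ∧ t ^ 3 - t = algebraMap F _ c ∧
      ∃ i : F, i ^ 3 = i ∧ (g : M6 F) * t = (t + algebraMap F _ i) * (g : M6 F) := by
  by_contra hcon
  push Not at hcon
  obtain ⟨hP, hT⟩ := hcon
  have h3 : (3 : F) = 0 := by exact_mod_cast CharP.cast_eq_zero F 3
  have h3m : (3 : M6 F) = 0 := three_eq_zero F _
  -- self-adjoint elements commuting with `g`
  have hscal : ∀ s : M6 F, SA s → (g : M6 F) * s = s * (g : M6 F) →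
      ∃ l : F, (s - algebraMap F _ l) ^ 6 = 0 := by
    intro s hs hgs
    rcases trichotomy hno hs hgs with h | ⟨t, h1, h2, h4⟩ | h
    · exact absurd h hP
    · exact absurd (by rw [map_zero, add_zero, h4]) (hT t h1 h2 0 (by ring))
    · exact h
  set G : M6 F := (g : M6 F) with hG
  set G' : M6 F := ((g⁻¹ : Matrix.symplecticGroup (Fin 3) F) : M6 F) with hG'
  have e1 : G * G' = 1 := coe_mul_inv g
  have e2 : G' * G = 1 := coe_inv_mul g
  have hsadG : sad G = G' := sad_coe g
  have hsadG' : sad G' = G := by rw [← hsadG, sad_sad]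
  -- the adjoint of something commuting with `g`
  have hcomm_sad : ∀ s : M6 F, G * s = s * G → G * sad s = sad s * G := by
    intro s hs
    have h1 := congrArg sad hs
    rw [sad_mul, sad_mul, hsadG] at h1
    calc G * sad s = G * (sad s * G') * G := by rw [mul_assoc, mul_assoc, e2, mul_one]
      _ = (G * G') * (sad s) * G := by rw [h1]; noncomm_ring
      _ = sad s * G := by rw [e1, one_mul]
  have htr : ∀ s : M6 F, G * s = s * G → s.trace = 0 := by
    intro s hs
    obtain ⟨l, hl⟩ := hscal (s + sad s) (SA_add_sad s) (by rw [mul_add, add_mul, hs, hcomm_sad s hs])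
    have h1 : IsNilpotent (s + sad s - algebraMap F _ l).trace :=
      Matrix.isNilpotent_trace_of_isNilpotent ⟨6, hl⟩
    have h2 := h1.eq_zero
    rw [Matrix.trace_sub, Matrix.trace_add, trace_sad, Matrix.algebraMap_eq_diagonal,
      Matrix.trace_diagonal, Fintype.sum_sum_type, Fin.sum_univ_three, Fin.sum_univ_three] at h2
    have h4 : s.trace + s.trace - (l + l + l + (l + l + l)) = 0 := h2
    linear_combination (s.trace - 2 * l) * h3 - h4
  obtain ⟨t0, ht0⟩ := exists_shift htr
  set t : M6 F := -(t0 + sad t0) with ht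
  have hSAt : SA t := (SA_add_sad t0).neg
  have ht0' : G * sad t0 = (sad t0 + 1) * G := by
    have h1 := congrArg sad ht0
    rw [sad_mul, sad_mul, sad_add, sad_one, hsadG] at h1
    calc G * sad t0 = G * (sad t0 * G') * G := by rw [mul_assoc, mul_assoc, e2, mul_one]
      _ = (G * G') * (sad t0 + 1) * G := by rw [h1]; noncomm_ring
      _ = (sad t0 + 1) * G := by rw [e1, one_mul]
  have htg : G * t = (t + 1) * G := by
    have e : G * t = -(G * t0 + G * sad t0) := by rw [ht]; noncomm_ring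
    rw [e, ht0, ht0', ht]
    have e2 : -((t0 + 1) * G + (sad t0 + 1) * G) =
      (-(t0 + sad t0) + 1) * G - 3 * G := by noncomm_ring
    rw [e2, h3m, zero_mul, sub_zero]
  have hgz : G * (t ^ 3 - t) = (t ^ 3 - t) * G := by
    have h1 := shift_pow F htg 1
    rw [pow_one] at h1
    rw [mul_sub, h1, htg]
    noncomm_ring
  obtain ⟨lz, hlz⟩ := hscal _ ((hSAt.pow 3).sub hSAt) hgz
  -- the final step, for `u = g^k`
  have final : ∀ (u u' : M6 F) (ly : F), u * u' = 1 → u' * u = 1 → u * t = (t + 1) * u →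
      G * (u + u') = (u + u') * G → SA (u + u') → ly ≠ 0 →
      IsNilpotent (u + u' - algebraMap F _ ly) → False := by
    intro u u' ly hu1 hu2 hut hgu hSAu hly hnil
    obtain ⟨N, c0, β, _, _, hw⟩ := core (u := u) (u' := u') (t := t) hu1 hu2 hut (lz := lz) (ly := ly)
      (nz := t ^ 3 - t - algebraMap F _ lz) (ny := u + u' - algebraMap F _ ly) (by abel) (by abel)
      ⟨6, hlz⟩ hnil hly c
    set w := t + algebraMap F _ β * (u + u') with hwd
    have hSAw : SA w := hSAt.add ((SA.algMap β).mul hSAu (Algebra.commutes β _))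
    have hgw : G * w = (w + 1) * G := by
      rw [hwd, mul_add, htg, ← mul_assoc, ← Algebra.commutes β G, mul_assoc, hgu]
      noncomm_ring
    exact hT (w ^ 3 ^ N) (hSAw.pow _) hw 1 (by ring) (by rw [map_one]; exact shift_pow F hgw N)
  have hSAy : SA (G + G') := by
    have := SA_add_sad G
    rwa [hsadG] at this
  have hgy : G * (G + G') = (G + G') * G := by rw [mul_add, add_mul, e1, e2]
  obtain ⟨ly, hly⟩ := hscal (G + G') hSAy hgy
  by_cases hly0 : ly = 0
  · -- use `g⁻²`
    rw [hly0, map_zero, sub_zero] at hly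
    have hy2 : G' ^ 2 + G ^ 2 = (G + G') ^ 2 + 1 := by
      have : (G + G') ^ 2 = G ^ 2 + G' ^ 2 + 2 := by
        have : (G + G') ^ 2 = G ^ 2 + G * G' + G' * G + G' ^ 2 := by noncomm_ring
        have h22 : (2 : M6 F) = 1 + 1 := one_add_one_eq_two.symm
        rw [this, e1, e2, h22]; abel
      rw [this]
      have h21 : (2 : M6 F) + 1 = 3 := by norm_num
      have h4 : G ^ 2 + G' ^ 2 + 2 + 1 = G' ^ 2 + G ^ 2 + 3 := by rw [← h21]; abel
      rw [h4, h3m, add_zero]
    have k1 : G' ^ 2 * G ^ 2 = 1 := by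
      rw [pow_two, pow_two, mul_assoc, ← mul_assoc G' G G, e2, one_mul, e2]
    have k2 : G ^ 2 * G' ^ 2 = 1 := by
      rw [pow_two, pow_two, mul_assoc, ← mul_assoc G G' G', e1, one_mul, e1]
    have hshift : G ^ 2 * t = (t + 2) * G ^ 2 := by
      rw [pow_two, mul_assoc, htg, ← mul_assoc, mul_add, htg]
      noncomm_ring
    have hshift' : G' ^ 2 * t = (t + 1) * G' ^ 2 := by
      have h5 : G' ^ 2 * (G ^ 2 * t) * G' ^ 2 = G' ^ 2 * ((t + 2) * G ^ 2) * G' ^ 2 := by rw [hshift]
      have h6 : G' ^ 2 * (G ^ 2 * t) * G' ^ 2 = t * G' ^ 2 := by rw [← mul_assoc, k1, one_mul]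
      have h7 : G' ^ 2 * ((t + 2) * G ^ 2) * G' ^ 2 = G' ^ 2 * t + 2 * G' ^ 2 := by
        rw [mul_assoc (G' ^ 2), mul_assoc (t + 2), k2, mul_one]; noncomm_ring
      rw [h6, h7] at h5
      have h8 : (t + 1) * G' ^ 2 = (G' ^ 2 * t + 2 * G' ^ 2) + G' ^ 2 := by rw [← h5]; noncomm_ring
      rw [h8]
      have h9 : G' ^ 2 * t + 2 * G' ^ 2 + G' ^ 2 = G' ^ 2 * t + 3 * G' ^ 2 := by noncomm_ring
      rw [h9, h3m, zero_mul, add_zero]
    refine final (G' ^ 2) (G ^ 2) 1 k1 k2 hshift' ?_ ?_ one_ne_zero ?_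
    · rw [hy2, mul_add, add_mul, mul_one, one_mul]
      congr 1
      exact (Commute.pow_right (show Commute G (G + G') from hgy) 2).eq
    · rw [hy2]
      have := (hSAy.pow 2).add (SA.algMap (1 : F))
      rwa [map_one] at this
    · rw [hy2, map_one, add_sub_cancel_right]
      exact ⟨6, by rw [← pow_mul, mul_comm, pow_mul, hly]; exact zero_pow two_ne_zero⟩
  · exact final G G' ly e1 e2 htg hgy hSAy hly0 ⟨6, hly⟩

end Cfsg.Agent.H156.SpThree
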