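import Mathlib
import Cfsg.Agent.H156.SpThree

set_option autoImplicit false

/-!
# The normal 2-covering of `PSp₆(3^a)` (helper156)
-/

open Cfsg

namespace Cfsg.Agent.H156.SpThreeCov

open Polynomial Module Matrix Cfsg.Agent.ClassicalGeometry.SympBasic Cfsg.Agent.H156.Art
  Cfsg.Agent.H156.Shift Cfsg.Agent.H156.SpThree

variable {F : Type*} [Field F] {c : F}

section Orbit

variable (hno : ∀ x : F, x ^ 3 - x ≠ c) {t : M6 F} (hsa : SA t)
  (ht : t ^ 3 - t = algebraMap F _ c)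

include hsa in
theorem rep_SA (a : AdjoinRoot (pol c)) : SA (rep ht a) := by
  obtain ⟨P, rfl⟩ := AdjoinRoot.mk_surjective a
  rw [rep_mk]
  exact hsa.aeval P

include hno in
theorem rep_injective {v : V6 F} (hv : v ≠ 0) {b : AdjoinRoot (pol c)} (hb : rep ht b *ᵥ v = 0) :
    b = 0 := by
  have : Fact (Irreducible (pol c)) := ⟨irr_AS hno⟩
  by_contra h
  apply hv
  have h1 : rep ht b⁻¹ *ᵥ (rep ht b *ᵥ v) = v := by
    rw [mulVec_mulVec, ← map_mul, inv_mul_cancel₀ h, map_one, one_mulVec]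
  rw [← h1, hb, mulVec_zero]

theorem finDim (c : F) : FiniteDimensional F (AdjoinRoot (pol c)) := Module.Finite.of_basis (bas c)

include hsa in
theorem ts [NeZero (2 : F)] (v : V6 F) (a b : AdjoinRoot (pol c)) :
    sympForm 3 F (rep ht a *ᵥ v) (rep ht b *ᵥ v) = 0 := by
  rw [← rep_SA hsa ht b, mulVec_mulVec, ← map_mul]
  exact (rep_SA hsa ht _).alt v

include hno ht in
/-- a dual vector -/
theorem exists_dual : ∃ v w : V6 F, v ≠ 0 ∧
    ∀ k : Fin 3, sympForm 3 F (t ^ (k : ℕ) *ᵥ v) w = if k = 2 then 1 else 0 := by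
  have hfin := finDim c
  set v : V6 F := fun _ => 1 with hvd
  have hv : v ≠ 0 := fun h => one_ne_zero (congrFun h (Sum.inl 0))
  -- the orbit
  let O : AdjoinRoot (pol c) →ₗ[F] V6 F :=
    { toFun := fun b => rep ht b *ᵥ v
      map_add' := fun a b => by rw [map_add, Matrix.add_mulVec]
      map_smul' := fun a b => by rw [map_smul, Matrix.smul_mulVec]; rfl }
  have hOinj : Function.Injective O := by
    rw [injective_iff_map_eq_zero]
    intro b hb
    exact rep_injective hno ht hv hb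
  have hOr : finrank F (LinearMap.range O) = 3 := by
    rw [LinearMap.finrank_range_of_inj hOinj, finrank_field]
  let T : V6 F →ₗ[F] (Fin 3 → F) := LinearMap.pi fun k => sympBilin 3 F (t ^ (k : ℕ) *ᵥ v)
  have hT : ∀ w k, T w k = sympForm 3 F (t ^ (k : ℕ) *ᵥ v) w := fun w k => rfl
  have hker : LinearMap.ker T ≤ spPerp (LinearMap.range O) := by
    rintro w hw _ ⟨b, rfl⟩
    have hS : ((sympBilin 3 F).flip w) ∘ₗ O = 0 := by
      apply (bas c).ext
      intro k
      have h1 : T w k = 0 := by rw [LinearMap.mem_ker.1 hw]; rfl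
      rw [hT] at h1
      show sympForm 3 F (rep ht (bas c k) *ᵥ v) w = 0
      rw [bas_apply, map_pow, rep_root, h1]
    exact congrArg (fun f : AdjoinRoot (pol c) →ₗ[F] F => f b) hS
  have h1 := finrank_spPerp (LinearMap.range O)
  have h2 := Submodule.finrank_mono hker
  have h3 := LinearMap.finrank_range_add_finrank_ker T
  rw [finrank_V6] at h3
  have h4 : LinearMap.range T = ⊤ := by
    apply Submodule.eq_top_of_finrank_eq
    have h5 : finrank F (LinearMap.range T) ≤ finrank F (Fin 3 → F) := Submodule.finrank_le _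
    rw [Module.finrank_fin_fun] at h5 ⊢
    omega
  obtain ⟨w, hw⟩ := LinearMap.range_eq_top.1 h4 (fun k => if k = 2 then 1 else 0)
  exact ⟨v, w, hv, fun k => congrFun hw k⟩

/-- the functional -/
noncomputable def lam (c : F) : AdjoinRoot (pol c) →ₗ[F] F := (bas c).coord 2

theorem lam_bas (k : Fin 3) : lam c (bas c k) = if k = 2 then 1 else 0 := by
  rw [lam, Basis.coord_apply, Basis.repr_self, Finsupp.single_apply]

theorem form_eq {v w : V6 F} (h : ∀ k : Fin 3, sympForm 3 F (t ^ (k : ℕ) *ᵥ v) w = if k = 2 then 1 else 0)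
    (b : AdjoinRoot (pol c)) : sympForm 3 F (rep ht b *ᵥ v) w = lam c b := by
  let S : AdjoinRoot (pol c) →ₗ[F] F :=
    { toFun := fun b => sympForm 3 F (rep ht b *ᵥ v) w
      map_add' := fun x y => by rw [map_add, Matrix.add_mulVec, sympForm_add_left]
      map_smul' := fun x y => by rw [map_smul, Matrix.smul_mulVec, sympForm_smul_left]; rfl }
  have hS : S = lam c := by
    apply (bas c).ext
    intro k
    show sympForm 3 F (rep ht (bas c k) *ᵥ v) w = _
    rw [lam_bas, bas_apply, map_pow, rep_root, h]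
  exact congrArg (fun f : AdjoinRoot (pol c) →ₗ[F] F => f b) hS

/-- the coordinates -/
noncomputable def orbMap (v w : V6 F) : (AdjoinRoot (pol c) × AdjoinRoot (pol c)) →ₗ[F] V6 F where
  toFun x := rep ht x.1 *ᵥ v + rep ht x.2 *ᵥ w
  map_add' x y := by
    rw [Prod.fst_add, Prod.snd_add, map_add, map_add, Matrix.add_mulVec, Matrix.add_mulVec]
    abel
  map_smul' r x := by
    rw [Prod.smul_fst, Prod.smul_snd, map_smul, map_smul, Matrix.smul_mulVec, Matrix.smul_mulVec]
    rw [RingHom.id_apply, smul_add]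

include hsa in
theorem form_orbMap [NeZero (2 : F)] {v w : V6 F}
    (h : ∀ k : Fin 3, sympForm 3 F (t ^ (k : ℕ) *ᵥ v) w = if k = 2 then 1 else 0)
    (x y : AdjoinRoot (pol c) × AdjoinRoot (pol c)) :
    sympForm 3 F (orbMap ht v w x) (orbMap ht v w y) = lam c (y.2 * x.1) - lam c (x.2 * y.1) := by
  show sympForm 3 F (rep ht x.1 *ᵥ v + rep ht x.2 *ᵥ w) (rep ht y.1 *ᵥ v + rep ht y.2 *ᵥ w) = _
  have e1 : sympForm 3 F (rep ht x.1 *ᵥ v) (rep ht y.2 *ᵥ w) = lam c (y.2 * x.1) := by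
    rw [← rep_SA hsa ht y.2, mulVec_mulVec, ← map_mul, form_eq ht h]
  have e2 : sympForm 3 F (rep ht x.2 *ᵥ w) (rep ht y.1 *ᵥ v) = - lam c (x.2 * y.1) := by
    rw [sympForm_swap, ← rep_SA hsa ht x.2, mulVec_mulVec, ← map_mul, form_eq ht h]
  rw [sympForm_add_left, sympForm_add_right, sympForm_add_right, ts hsa ht, ts hsa ht, e1, e2]
  ring

include hsa hno in
theorem orbMap_injective [NeZero (2 : F)] {v w : V6 F} (hv : v ≠ 0)
    (h : ∀ k : Fin 3, sympForm 3 F (t ^ (k : ℕ) *ᵥ v) w = if k = 2 then 1 else 0) :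
    Function.Injective (orbMap ht v w) := by
  have hfact : Fact (Irreducible (pol c)) := ⟨irr_AS hno⟩
  rw [injective_iff_map_eq_zero]
  rintro ⟨a, b⟩ hab
  have hb : b = 0 := by
    by_contra hb
    have h1 := form_orbMap hsa ht h (b⁻¹ * bas c 2, 0) (a, b)
    rw [hab, sympForm_zero_right] at h1
    simp only [zero_mul, map_zero, sub_zero] at h1
    rw [← mul_assoc, mul_inv_cancel₀ hb, one_mul, lam_bas, if_pos rfl] at h1
    exact zero_ne_one h1
  subst hb
  have ha : a = 0 := by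
    apply rep_injective hno ht hv
    have : rep ht a *ᵥ v + rep ht (0 : AdjoinRoot (pol c)) *ᵥ w = 0 := hab
    rwa [map_zero, zero_mulVec, add_zero] at this
  rw [ha]
  rfl

end Orbit

/-- the linear coordinates -/
noncomputable def orb [NeZero (2 : F)] (hno : ∀ x : F, x ^ 3 - x ≠ c) {t : M6 F} (hsa : SA t)
    (ht : t ^ 3 - t = algebraMap F _ c) {v w : V6 F} (hv : v ≠ 0)
    (h : ∀ k : Fin 3, sympForm 3 F (t ^ (k : ℕ) *ᵥ v) w = if k = 2 then 1 else 0) :
    (AdjoinRoot (pol c) × AdjoinRoot (pol c)) ≃ₗ[F] V6 F :=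
  haveI := finDim c
  LinearMap.linearEquivOfInjective (orbMap ht v w) (orbMap_injective hno hsa ht hv h) (by
    rw [Module.finrank_prod, finrank_field, finrank_V6])

theorem orb_apply [NeZero (2 : F)] (hno : ∀ x : F, x ^ 3 - x ≠ c) {t : M6 F} (hsa : SA t)
    (ht : t ^ 3 - t = algebraMap F _ c) {v w : V6 F} (hv : v ≠ 0)
    (h : ∀ k : Fin 3, sympForm 3 F (t ^ (k : ℕ) *ᵥ v) w = if k = 2 then 1 else 0)
    (x : AdjoinRoot (pol c) × AdjoinRoot (pol c)) : orb hno hsa ht hv h x = orbMap ht v w x := rfl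

/-- conjugacy of the Artin-Schreier elements -/
theorem exists_conj [NeZero (2 : F)] (hno : ∀ x : F, x ^ 3 - x ≠ c) {t t' : M6 F} (hsa : SA t)
    (ht : t ^ 3 - t = algebraMap F _ c) (hsa' : SA t') (ht' : t' ^ 3 - t' = algebraMap F _ c) :
    ∃ x : Matrix.symplecticGroup (Fin 3) F, (x : M6 F) * t = t' * (x : M6 F) := by
  obtain ⟨v, w, hv, h⟩ := exists_dual hno ht
  obtain ⟨v', w', hv', h'⟩ := exists_dual hno ht'
  let X : V6 F ≃ₗ[F] V6 F := (orb hno hsa ht hv h).symm.trans (orb hno hsa' ht' hv' h')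
  have hX : ∀ b, X (orbMap ht v w b) = orbMap ht' v' w' b := by
    intro b
    have h1 : orbMap ht v w b = orb hno hsa ht hv h b := rfl
    rw [h1, LinearEquiv.trans_apply, LinearEquiv.symm_apply_apply, orb_apply]
  set M : M6 F := LinearMap.toMatrix' (X : V6 F →ₗ[F] V6 F) with hM
  have hMv : ∀ u, M *ᵥ u = X u := fun u => by
    rw [hM, LinearMap.toMatrix'_mulVec]; rfl
  have hsurj : ∀ u : V6 F, ∃ b, orbMap ht v w b = u := (orb hno hsa ht hv h).surjective
  have hiso : M ∈ Matrix.symplecticGroup (Fin 3) F := by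
    rw [mem_symplecticGroup_iff]
    intro u u'
    obtain ⟨a, rfl⟩ := hsurj u
    obtain ⟨b, rfl⟩ := hsurj u'
    rw [hMv, hMv, hX, hX, form_orbMap hsa ht h, form_orbMap hsa' ht' h']
  refine ⟨⟨M, hiso⟩, ?_⟩
  show M * t = t' * M
  have hmul : ∀ {s : M6 F} (hs : s ^ 3 - s = algebraMap F _ c) (y z : V6 F)
      (b : AdjoinRoot (pol c) × AdjoinRoot (pol c)),
      s *ᵥ orbMap hs y z b = orbMap hs y z (AdjoinRoot.root (pol c) * b.1, AdjoinRoot.root (pol c) * b.2) := by
    intro s hs y z b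
    show s *ᵥ (rep hs b.1 *ᵥ y + rep hs b.2 *ᵥ z) =
      rep hs (AdjoinRoot.root (pol c) * b.1) *ᵥ y + rep hs (AdjoinRoot.root (pol c) * b.2) *ᵥ z
    rw [map_mul, map_mul, rep_root, mulVec_add, mulVec_mulVec, mulVec_mulVec]
  apply Matrix.ext_of_mulVec_single
  intro i
  obtain ⟨b, hb⟩ := hsurj (Pi.single i 1)
  rw [← hb, ← mulVec_mulVec, ← mulVec_mulVec, hMv, hMv, hmul, hX, hX, hmul]

/-- the inclusion -/
def spHom (F : Type*) [Field F] : Matrix.symplecticGroup (Fin 3) F →* M6 F :=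
  (Matrix.symplecticGroup (Fin 3) F).subtype

/-- the stabiliser of `t` is proper -/
theorem shiftStab_ne_top [CharP F 3] [NeZero (2 : F)] (hno : ∀ x : F, x ^ 3 - x ≠ c) {t : M6 F}
    (hsa : SA t) (ht : t ^ 3 - t = algebraMap F _ c) : shiftStab F (spHom F) t ≠ ⊤ := by
  intro htop
  set a : V6 F := Pi.single (Sum.inr 0) 1 with ha
  have ha0 : a ≠ 0 := by
    intro h
    have := congrFun h (Sum.inr 0)
    rw [ha, Pi.single_eq_same] at this
    exact one_ne_zero this
  have hmem : transv a 1 ∈ shiftStab F (spHom F) t := by rw [htop]; trivial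
  obtain ⟨i, hi, hi'⟩ := hmem
  have hT : ∀ u, (transv a (1 : F) : M6 F) *ᵥ u = u + sympForm 3 F u a • a := fun u => by
    rw [coe_transv, sympTransvection_mulVec, one_mul]
  have key : ∀ u, sympForm 3 F (t *ᵥ u) a • a =
      sympForm 3 F u a • (t *ᵥ a) + i • u + (i * sympForm 3 F u a) • a := by
    intro u
    have h1 : ((transv a (1 : F) : M6 F) * t) *ᵥ u =
        ((t + algebraMap F _ i) * (transv a (1 : F) : M6 F)) *ᵥ u :=
      congrArg (fun M => M *ᵥ u) hi'
    rw [← mulVec_mulVec, ← mulVec_mulVec, hT, hT, Matrix.add_mulVec, mulVec_add, mulVec_smul,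
      algebraMap_mulVec, smul_add, smul_smul, add_assoc] at h1
    have h3 := add_left_cancel h1
    rw [h3, add_assoc]
  have hi0 : i = 0 := by
    have h1 := key a
    rw [hsa.alt a, sympForm_self, zero_smul, zero_smul, zero_add, mul_zero, zero_smul, add_zero] at h1
    exact (smul_eq_zero.1 h1.symm).resolve_right ha0
  obtain ⟨u, hu⟩ : ∃ u, sympForm 3 F u a ≠ 0 := by
    by_contra hcon
    push Not at hcon
    exact ha0 (eq_zero_of_forall_sympForm_left hcon)
  have h1 := key u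
  rw [hi0, zero_smul, zero_mul, zero_smul, add_zero, add_zero] at h1
  obtain ⟨μ, hμ⟩ : ∃ μ : F, t *ᵥ a = μ • a := by
    refine ⟨(sympForm 3 F u a)⁻¹ * sympForm 3 F (t *ᵥ u) a, ?_⟩
    rw [mul_smul, h1, smul_smul, inv_mul_cancel₀ hu, one_smul]
  have h3 : (t ^ 3 - t) *ᵥ a = (μ ^ 3 - μ) • a := by
    rw [Matrix.sub_mulVec, pow_succ, pow_two, ← mulVec_mulVec, ← mulVec_mulVec, hμ, mulVec_smul,
      mulVec_smul, hμ, mulVec_smul, hμ, smul_smul, smul_smul, ← sub_smul]
    congr 1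
    ring
  rw [ht, algebraMap_mulVec] at h3
  apply hno μ
  have h4 : (c - (μ ^ 3 - μ)) • a = 0 := by rw [sub_smul, h3, sub_self]
  exact (sub_eq_zero.1 ((smul_eq_zero.1 h4).resolve_right ha0)).symm

/-- The stabiliser of a plane. -/
def planeStab (W : Submodule F (V6 F)) : Subgroup (Matrix.symplecticGroup (Fin 3) F) where
  carrier := {g | ∀ w ∈ W, (g : M6 F) *ᵥ w ∈ W}
  mul_mem' {a b} ha hb w hw := by
    rw [coe_mul_mulVec]
    exact ha _ (hb w hw)
  one_mem' w hw := by
    have : ((1 : Matrix.symplecticGroup (Fin 3) F) : M6 F) *ᵥ w = w := Matrix.one_mulVec w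
    rw [this]
    exact hw
  inv_mem' {g} hg := by
    have hinj : Function.Injective (Matrix.mulVecLin (g : M6 F)) := by
      intro x y hxy
      have hxy' : (g : M6 F) *ᵥ x = (g : M6 F) *ᵥ y := hxy
      have h1 : ((g⁻¹ : Matrix.symplecticGroup (Fin 3) F) : M6 F) *ᵥ ((g : M6 F) *ᵥ x) =
        ((g⁻¹ : Matrix.symplecticGroup (Fin 3) F) : M6 F) *ᵥ ((g : M6 F) *ᵥ y) := by rw [hxy']
      rw [mulVec_mulVec, mulVec_mulVec, coe_inv_mul, one_mulVec, one_mulVec] at h1
      exact h1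
    have h1 : W.map (Matrix.mulVecLin (g : M6 F)) = W := by
      apply Submodule.eq_of_le_of_finrank_eq
      · rintro _ ⟨u, hu, rfl⟩
        exact hg u hu
      · exact (Submodule.equivMapOfInjective _ hinj W).finrank_eq.symm
    intro u hu
    rw [← h1] at hu
    obtain ⟨w, hw, rfl⟩ := hu
    rw [Matrix.mulVecLin_apply, mulVec_mulVec, coe_inv_mul, one_mulVec]
    exact hw

theorem planeStab_ne_top : planeStab (Submodule.span F {(Pi.single (Sum.inr 0) 1 : V6 F),
    (Pi.single (Sum.inl 0) 1 : V6 F)}) ≠ ⊤ := by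
  intro htop
  set W := Submodule.span F {(Pi.single (Sum.inr 0) 1 : V6 F), (Pi.single (Sum.inl 0) 1 : V6 F)} with hW
  set a : V6 F := Pi.single (Sum.inl 0) 1 + Pi.single (Sum.inl 1) 1 with ha
  have hmem : transv a 1 ∈ planeStab W := by rw [htop]; trivial
  have h1 := hmem (Pi.single (Sum.inr 0) 1) (Submodule.subset_span (by simp))
  rw [coe_transv, sympTransvection_mulVec, sympForm_single_inr_left] at h1
  have hcoord : ∀ w ∈ W, w (Sum.inl 1) = 0 := by
    intro w hw
    obtain ⟨x, y, rfl⟩ := Submodule.mem_span_pair.1 hw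
    simp
  have h2 := hcoord _ h1
  have h3 : a (Sum.inl 0) = 1 := by rw [ha]; simp
  have h4 : a (Sum.inl 1) = 1 := by rw [ha]; simp
  rw [h3, mul_one, one_smul, Pi.add_apply, h4] at h2
  simp at h2

theorem psp3 [Fintype F] [CharP F 3] :
    ∃ H K : Subgroup (Cfsg.PSp 3 F), H ≠ ⊤ ∧ K ≠ ⊤ ∧ ∀ g : (Cfsg.PSp 3 F),
      ∃ x : (Cfsg.PSp 3 F), x * g * x⁻¹ ∈ H ∨ x * g * x⁻¹ ∈ K := by
  classical
  have h2 : NeZero (2 : F) := ⟨by
    intro h
    have h3 : (3 : F) = 0 := by exact_mod_cast CharP.cast_eq_zero F 3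
    have : (1 : F) = 0 := by linear_combination h3 - h
    exact one_ne_zero this⟩
  obtain ⟨c, hno⟩ := exists_not_AS (F := F)
  set e : V6 F := Pi.single (Sum.inr 0) 1 with he
  set f : V6 F := Pi.single (Sum.inl 0) 1 with hf
  have hef : sympForm 3 F e f = 1 := by rw [he, sympForm_single_inr_left, hf, Pi.single_eq_same]
  have hcen : ∀ z ∈ Subgroup.center (Matrix.symplecticGroup (Fin 3) F), (z : M6 F) = 1 ∨ (z : M6 F) = -1 :=
    fun z hz => Cfsg.Agent.ClassicalGeometry.SympInvolutions.center_eq hz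
  have hcH : Subgroup.center (Matrix.symplecticGroup (Fin 3) F) ≤ planeStab (Submodule.span F {e, f}) := by
    intro z hz w hw
    rcases hcen z hz with h | h
    · rw [h, one_mulVec]; exact hw
    · rw [h, neg_mulVec, one_mulVec]; exact Submodule.neg_mem _ hw
  have hplane : ∀ g : Matrix.symplecticGroup (Fin 3) F, Plane (g : M6 F) →
      ∃ x, x * g * x⁻¹ ∈ planeStab (Submodule.span F {e, f}) := by
    rintro g ⟨u, v, huv, hg⟩
    obtain ⟨A, _, hAu, hAv⟩ := exists_transvGroup_hyperbolic huv hef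
    refine ⟨A, ?_⟩
    intro w hw
    have hA : ∀ w ∈ Submodule.span F {u, v}, (A : M6 F) *ᵥ w ∈ Submodule.span F {e, f} := by
      intro w hw
      obtain ⟨x, y, rfl⟩ := Submodule.mem_span_pair.1 hw
      rw [mulVec_add, mulVec_smul, mulVec_smul, hAu, hAv]
      exact Submodule.mem_span_pair.2 ⟨x, y, rfl⟩
    obtain ⟨x, y, rfl⟩ := Submodule.mem_span_pair.1 hw
    have h1 : ((A⁻¹ : Matrix.symplecticGroup (Fin 3) F) : M6 F) *ᵥ (x • e + y • f) = x • u + y • v := by
      rw [← hAu, ← hAv, ← mulVec_smul, ← mulVec_smul, ← mulVec_add, mulVec_mulVec, coe_inv_mul,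
        one_mulVec]
    rw [coe_mul_mulVec, coe_mul_mulVec, h1]
    exact hA _ (hg _ (Submodule.mem_span_pair.2 ⟨x, y, rfl⟩))
  by_cases hex : ∃ t : M6 F, SA t ∧ t ^ 3 - t = algebraMap F _ c
  · obtain ⟨t0, hsa0, ht0⟩ := hex
    refine TwoCov.quot _ (planeStab (Submodule.span F {e, f})) (shiftStab F (spHom F) t0)
      planeStab_ne_top (shiftStab_ne_top hno hsa0 ht0) hcH ?_ ?_
    · intro z hz
      refine ⟨0, by ring, ?_⟩
      rw [map_zero, add_zero]
      show (z : M6 F) * t0 = t0 * (z : M6 F)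
      rcases hcen z hz with h | h
      · rw [h, one_mul, mul_one]
      · rw [h, neg_mul, mul_neg, one_mul, mul_one]
    · intro g
      rcases exists_t hno g with h | ⟨t, hsa, ht, i, hi, hg⟩
      · obtain ⟨x, hx⟩ := hplane g h
        exact ⟨x, Or.inl hx⟩
      · obtain ⟨x, hx⟩ := exists_conj hno hsa ht hsa0 ht0
        exact ⟨x, Or.inr (conj_mem (ρ := spHom F) hi hg hx)⟩
  · refine TwoCov.quot _ (planeStab (Submodule.span F {e, f})) (planeStab (Submodule.span F {e, f}))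
      planeStab_ne_top planeStab_ne_top hcH hcH ?_
    intro g
    rcases exists_t hno g with h | ⟨t, hsa, ht, _⟩
    · obtain ⟨x, hx⟩ := hplane g h
      exact ⟨x, Or.inl hx⟩
    · exact absurd ⟨t, hsa, ht⟩ hex

end Cfsg.Agent.H156.SpThreeCov
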