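import Mathlib
import Cfsg.Agent.H156.Art
import Cfsg.Agent.H156.UStab

set_option autoImplicit false

/-!
# The adjoint involution on matrices over `F_{q²}` (helper156)
-/

open Cfsg

namespace Cfsg.Agent.H156.UAdj

open Cfsg.Agent.LieClassical.HermBasic Cfsg.Agent.LieClassical.HermSiegel Polynomial Module
  Cfsg.Agent.H156.UBase Cfsg.Agent.H156.UPerp Matrix

variable {F : Type*} [Field F] [Fintype F] {q n : ℕ}

/-- the conjugate transpose -/
def ad (hF : Fintype.card F = q ^ 2) (A : Matrix (Fin n) (Fin n) F) : Matrix (Fin n) (Fin n) F :=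
  (A.map (conj hF))ᵀ

variable (hF : Fintype.card F = q ^ 2)

theorem ad_apply (A : Matrix (Fin n) (Fin n) F) (i j : Fin n) : ad hF A i j = (A j i) ^ q := rfl

theorem ad_add (A B : Matrix (Fin n) (Fin n) F) : ad hF (A + B) = ad hF A + ad hF B := by
  ext i j
  simp only [ad_apply, Matrix.add_apply, add_pow_q hF]

theorem ad_neg (A : Matrix (Fin n) (Fin n) F) : ad hF (-A) = -ad hF A := by
  ext i j
  simp only [ad_apply, Matrix.neg_apply, neg_pow_q hF]

theorem ad_sub (A B : Matrix (Fin n) (Fin n) F) : ad hF (A - B) = ad hF A - ad hF B := by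
  rw [sub_eq_add_neg, sub_eq_add_neg, ad_add, ad_neg]

theorem ad_ad (A : Matrix (Fin n) (Fin n) F) : ad hF (ad hF A) = A := by
  ext i j
  simp only [ad_apply, pow_q_pow_q hF]

theorem ad_mul (A B : Matrix (Fin n) (Fin n) F) : ad hF (A * B) = ad hF B * ad hF A := by
  ext i j
  simp only [ad_apply, Matrix.mul_apply, sum_pow_q hF, mul_pow]
  exact Finset.sum_congr rfl fun k _ => mul_comm _ _

theorem ad_one : ad hF (1 : Matrix (Fin n) (Fin n) F) = 1 := by
  ext i j
  rw [ad_apply, Matrix.one_apply, Matrix.one_apply]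
  by_cases h : i = j
  · subst h; simp
  · rw [if_neg h, if_neg (Ne.symm h), zero_pow_q hF]

theorem ad_zero : ad hF (0 : Matrix (Fin n) (Fin n) F) = 0 := by
  ext i j
  rw [ad_apply, Matrix.zero_apply, Matrix.zero_apply, zero_pow_q hF]

theorem ad_pow (A : Matrix (Fin n) (Fin n) F) (k : ℕ) : ad hF (A ^ k) = ad hF A ^ k := by
  induction k with
  | zero => rw [pow_zero, pow_zero, ad_one]
  | succ k ih => rw [pow_succ, ad_mul, ih, pow_succ']

theorem ad_algebraMap (c : F) :
    ad hF (algebraMap F (Matrix (Fin n) (Fin n) F) c) = algebraMap F _ (c ^ q) := by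
  ext i j
  rw [ad_apply, Matrix.algebraMap_matrix_apply, Matrix.algebraMap_matrix_apply]
  by_cases h : i = j
  · subst h; simp
  · rw [if_neg h, if_neg (Ne.symm h), zero_pow_q hF]

theorem herm_ad (A : Matrix (Fin n) (Fin n) F) (u v : Fin n → F) :
    hermForm n F q (A *ᵥ u) v = hermForm n F q u (ad hF A *ᵥ v) := by
  rw [herm_def, herm_def]
  have h1 : ∀ i, (ad hF A *ᵥ v) i ^ q = ∑ j, A j i * v j ^ q := by
    intro i
    show (∑ j, ad hF A i j * v j) ^ q = _
    rw [sum_pow_q hF]
    refine Finset.sum_congr rfl fun j _ => ?_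
    rw [ad_apply, mul_pow, pow_q_pow_q hF]
  simp only [h1]
  show ∑ i, (∑ j, A i j * u j) * v i ^ q = _
  simp only [Finset.sum_mul, Finset.mul_sum]
  rw [Finset.sum_comm]
  refine Finset.sum_congr rfl fun j _ => Finset.sum_congr rfl fun i _ => ?_
  ring

theorem ad_eq_of {A B : Matrix (Fin n) (Fin n) F}
    (h : ∀ u v, hermForm n F q (A *ᵥ u) v = hermForm n F q u (B *ᵥ v)) : ad hF A = B := by
  apply Matrix.ext_of_mulVec_single
  intro i
  have h1 : ∀ u, hermForm n F q u (ad hF A *ᵥ Pi.single i 1 - B *ᵥ Pi.single i 1) = 0 := by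
    intro u
    rw [herm_sub_right hF, ← herm_ad, h, sub_self]
  have h2 : ad hF A *ᵥ Pi.single i 1 - B *ᵥ Pi.single i 1 = 0 := by
    apply herm_nondeg hF
    intro u
    rw [herm_swap hF, h1, zero_pow_q hF]
  exact sub_eq_zero.1 h2

theorem mat_mul_inv (g : SU n F q) : mat g * mat g⁻¹ = 1 := by
  rw [← mat_mul, mul_inv_cancel, mat_one]

theorem mat_inv_mul (g : SU n F q) : mat g⁻¹ * mat g = 1 := by
  rw [← mat_mul, inv_mul_cancel, mat_one]

theorem ad_mat (g : SU n F q) : ad hF (mat g) = mat g⁻¹ := by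
  apply ad_eq_of
  intro u v
  have := herm_act_left g u v
  exact this

/-- `mat` as a homomorphism -/
def matHom (n : ℕ) (F : Type*) [Field F] (q : ℕ) : SU n F q →* Matrix (Fin n) (Fin n) F where
  toFun := mat
  map_one' := mat_one
  map_mul' := mat_mul

end Cfsg.Agent.H156.UAdj
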